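import Cfsg.Agent.Lib.GLCuspidal.Def

/-!
# The cuspidal function sums to zero over each coset of a unipotent radical
-/

set_option autoImplicit false
set_option linter.unusedSectionVars false
set_option linter.style.haveILetI false

namespace CfsgLib.GLCuspidal

open Polynomial Module

variable {F : Type*} [Field F] [Finite F] {K : Type*} [Field K] [Algebra F K] (θ : K → ℂ)
variable {V : Type*} [AddCommGroup V] [Module F V] [FiniteDimensional F V]

/-- The endomorphisms vanishing on `U` with image in `U`. -/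
def unipDir (U : Submodule F V) : Submodule F (Module.End F V) where
  carrier := {h | (∀ x ∈ U, h x = 0) ∧ ∀ x, h x ∈ U}
  zero_mem' := ⟨fun x _ => rfl, fun x => U.zero_mem⟩
  add_mem' := fun {a b} ha hb => ⟨fun x hx => by simp [ha.1 x hx, hb.1 x hx],
    fun x => U.add_mem (ha.2 x) (hb.2 x)⟩
  smul_mem' := fun c a ha => ⟨fun x hx => by simp [ha.1 x hx], fun x => U.smul_mem c (ha.2 x)⟩

theorem mem_unipDir {U : Submodule F V} {h : Module.End F V} :
    h ∈ unipDir U ↔ (∀ x ∈ U, h x = 0) ∧ ∀ x, h x ∈ U := Iff.rfl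

/-- The finite set underlying `unipDir`. -/
noncomputable def dirSet (U : Submodule F V) : Finset (Module.End F V) :=
  haveI := finite_space F V
  haveI : Finite (Module.End F V) := Finite.of_injective _ DFunLike.coe_injective
  (Set.toFinite (unipDir U : Set (Module.End F V))).toFinset

theorem mem_dirSet {U : Submodule F V} {h : Module.End F V} : h ∈ dirSet U ↔ h ∈ unipDir U := by
  simp [dirSet]

theorem card_dirSet_pos (U : Submodule F V) : 0 < (dirSet U).card :=
  Finset.card_pos.2 ⟨0, mem_dirSet.2 (zero_mem _)⟩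

theorem inv_add_dir {U : Submodule F V} {f h : Module.End F V} (hf : Inv f U) (hh : h ∈ unipDir U) :
    Inv (f + h) U := fun x hx => by
  rw [Submodule.mem_comap, LinearMap.add_apply]
  exact U.add_mem (hf hx) (hh.2 x)

theorem restrict_add_dir {U : Submodule F V} {f h : Module.End F V} (hf : Inv f U)
    (hh : h ∈ unipDir U) : (f + h).restrict (inv_add_dir hf hh) = f.restrict hf :=
  LinearMap.ext fun x => Subtype.ext (by simp [hh.1 x x.2])

theorem mapQ_add_dir {U : Submodule F V} {f h : Module.End F V} (hf : Inv f U)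
    (hh : h ∈ unipDir U) : U.mapQ U (f + h) (inv_add_dir hf hh) = U.mapQ U f hf := by
  refine Submodule.linearMap_qext _ (LinearMap.ext fun x => ?_)
  show U.mkQ ((f + h) x) = U.mkQ (f x)
  rw [LinearMap.add_apply, map_add, (Submodule.Quotient.mk_eq_zero U).2 (hh.2 x) |> fun e =>
    (show U.mkQ (h x) = 0 from e), add_zero]

theorem liftSum_add_dir {U : Submodule F V} {f h : Module.End F V} (hf : Inv f U)
    (hh : h ∈ unipDir U) : liftSum θ (f + h) = liftSum θ f := by
  rw [liftSum_split θ f U hf, liftSum_split θ (f + h) U (inv_add_dir hf hh),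
    restrict_add_dir hf hh, mapQ_add_dir hf hh]

/-- A sum of values of a function at the images of a surjective additive map. -/
theorem sum_comp_surj {A B : Type*} [AddCommGroup A] [AddCommGroup B] [Fintype A] [Fintype B]
    (φ : A →+ B) (hφ : Function.Surjective φ) (g : B → ℂ) :
    ∑ a : A, g (φ a) = (Nat.card φ.ker : ℂ) * ∑ b : B, g b := by
  classical
  rw [← Finset.sum_fiberwise Finset.univ φ, Finset.mul_sum]
  refine Finset.sum_congr rfl fun b _ => ?_
  rw [Finset.sum_congr rfl fun a ha => by rw [(Finset.mem_filter.1 ha).2], Finset.sum_const,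
    nsmul_eq_mul]
  congr 1
  obtain ⟨a₀, rfl⟩ := hφ b
  rw [Nat.card_eq_fintype_card, ← Finset.card_univ]
  norm_cast
  refine (Finset.card_bij (fun (k : φ.ker) _ => a₀ + k) (fun k _ => ?_) (fun k _ k' _ h => ?_)
    fun a ha => ?_).symm
  · simp [AddMonoidHom.mem_ker.1 k.2]
  · exact Subtype.ext (add_left_cancel h)
  · refine ⟨⟨-a₀ + a, ?_⟩, Finset.mem_univ _, by simp⟩
    rw [AddMonoidHom.mem_ker, map_add, map_neg, (Finset.mem_filter.1 ha).2, neg_add_cancel]

open Classical in
/-- The invariant subspaces inside an invariant subspace. -/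
theorem sum_le_eq_liftSum {f : Module.End F V} {U : Submodule F V} (hf : Inv f U) :
    ∑ W ∈ (invSub f).filter (· ≤ U), cusp θ (rst f W) = liftSum θ (f.restrict hf : Module.End F U) := by
  rw [liftSum_eq_sum θ (f.restrict hf : Module.End F U)]
  symm
  have hinv : ∀ W' : Submodule F U, Inv (f.restrict hf : Module.End F U) W' ↔
      Inv f (W'.map U.subtype) := by
    intro W'
    constructor
    · rintro h _ ⟨x, hx, rfl⟩
      exact ⟨_, h hx, rfl⟩
    · intro h x hx
      obtain ⟨y, hy, hy'⟩ := h (Submodule.mem_map_of_mem (f := U.subtype) hx)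
      have : y = f.restrict hf x := Subtype.ext hy'
      rw [this] at hy
      exact hy
  refine Finset.sum_bij (fun W' _ => W'.map U.subtype)
    (fun W' hW' => Finset.mem_filter.2 ⟨mem_invSub.2 ((hinv W').1 (mem_invSub.1 hW')),
      Submodule.map_subtype_le U W'⟩)
    (fun a _ b _ h => Submodule.map_injective_of_injective U.injective_subtype h)
    (fun W hW => ?_) (fun W' hW' => ?_)
  · obtain ⟨hW, hle⟩ := Finset.mem_filter.1 hW
    have he : (W.comap U.subtype).map U.subtype = W := by
      rw [Submodule.map_comap_subtype, inf_eq_right.2 hle]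
    exact ⟨W.comap U.subtype, mem_invSub.2 ((hinv _).2 (by rw [he]; exact mem_invSub.1 hW)), he⟩
  · have h1 := mem_invSub.1 hW'
    rw [← cusp_conj θ (Submodule.equivMapOfInjective U.subtype U.injective_subtype W')
      (rst (f.restrict hf : Module.End F U) W')]
    congr 1
    refine LinearMap.ext fun y => Subtype.ext ?_
    obtain ⟨x, rfl⟩ :=
      (Submodule.equivMapOfInjective U.subtype U.injective_subtype W').surjective y
    rw [rst_apply ((hinv W').1 h1)]
    simp [rst_apply h1]

open Classical in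
/-- The pairs of a perturbation and an invariant complement over `W₂`. -/
theorem card_pairs {U : Submodule F V} {f : Module.End F V} (hf : Inv f U)
    {W₂ : Submodule F (V ⧸ U)} (hW₂ : Inv (U.mapQ U f hf) W₂)
    (Ws : Finset (Submodule F V)) (hWs : ∀ W, W ∈ Ws ↔ W ⊓ U = ⊥ ∧ W.map U.mkQ = W₂) :
    ∑ W ∈ Ws, ((dirSet U).filter fun h => Inv (f + h) W).card = (dirSet U).card := by
  obtain ⟨s, hs⟩ := U.mkQ.exists_rightInverse_of_surjective U.range_mkQ
  have hs' : ∀ z, U.mkQ (s z) = z := LinearMap.congr_fun hs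
  obtain ⟨π, hπ⟩ := LinearMap.exists_leftInverse_of_injective W₂.subtype W₂.ker_subtype
  have hπ' : ∀ z ∈ W₂, (π z : V ⧸ U) = z := fun z hz =>
    congrArg Subtype.val (LinearMap.congr_fun hπ ⟨z, hz⟩)
  -- the projection onto the chosen lift
  set p : Module.End F V := s ∘ₗ W₂.subtype ∘ₗ π ∘ₗ U.mkQ with hp
  have hmk0 : ∀ x ∈ U, U.mkQ x = 0 := fun x hx => (Submodule.Quotient.mk_eq_zero U).2 hx
  have hmem : ∀ x, U.mkQ x = 0 → x ∈ U := fun x hx => (Submodule.Quotient.mk_eq_zero U).1 hx
  have hpU : ∀ x ∈ U, p x = 0 := fun x hx => by simp [hp, hmk0 x hx]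
  have hmp : ∀ x, U.mkQ (p x) = (π (U.mkQ x) : V ⧸ U) := fun x => hs' _
  have hmpW : ∀ x, U.mkQ (p x) ∈ W₂ := fun x => (hmp x).symm ▸ (π (U.mkQ x)).2
  set W₀ := W₂.map s with hW₀
  have hpW : ∀ x, p x ∈ W₀ := fun x => Submodule.mem_map_of_mem (π (U.mkQ x)).2
  have hp0 : ∀ w ∈ W₀, p w = w := by
    rintro _ ⟨z, hz, rfl⟩
    show s (π (U.mkQ (s z)) : V ⧸ U) = s z
    rw [hs', hπ' z hz]
  have hpp : ∀ x, p (p x) = p x := fun x => hp0 _ (hpW x)
  have hW₀inj : ∀ w ∈ W₀, U.mkQ w = 0 → w = 0 := by
    rintro _ ⟨z, -, rfl⟩ h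
    rw [hs'] at h
    rw [h, map_zero]
  set h₀ : Module.End F V := -((f - s ∘ₗ U.mkQ ∘ₗ f) ∘ₗ p) with hh₀
  have hh₀D : h₀ ∈ unipDir U := by
    refine ⟨fun x hx => by simp [hh₀, hpU x hx], fun x => hmem _ ?_⟩
    simp only [hh₀, LinearMap.neg_apply, LinearMap.comp_apply, LinearMap.sub_apply, map_neg,
      map_sub, hs', sub_self, neg_zero]
  have hh₀p : ∀ x, h₀ (p x) = h₀ x := fun x => by simp [hh₀, hpp]
  have hfW₀ : ∀ w ∈ W₀, f w + h₀ w ∈ W₀ := by
    intro w hw
    have e : f w + h₀ w = s (U.mkQ (f w)) := by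
      simp only [hh₀, LinearMap.neg_apply, LinearMap.comp_apply, LinearMap.sub_apply, hp0 w hw]
      abel
    rw [e]
    refine Submodule.mem_map_of_mem ?_
    have h1 : U.mkQ w ∈ W₂ := by
      obtain ⟨z, hz, rfl⟩ := hw
      rwa [hs']
    exact hW₂ h1
  -- the parametrisation
  let tOf : Module.End F V → Module.End F V := fun h => h ∘ₗ p
  have hcomm : ∀ t ∈ unipDir U, t ∘ₗ f - f ∘ₗ t ∈ unipDir U := fun t ht =>
    ⟨fun x hx => by simp [ht.1 _ (hf hx), ht.1 x hx],
      fun x => U.sub_mem (ht.2 _) (hf (ht.2 x))⟩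
  have htD : ∀ h ∈ unipDir U, tOf h ∈ unipDir U := fun h hh =>
    ⟨fun x hx => by simp [tOf, hpU x hx], fun x => hh.2 _⟩
  let fOf : Module.End F V → Module.End F V := fun h =>
    h₀ + (h - tOf h) + (tOf h ∘ₗ f - f ∘ₗ tOf h)
  let WOf : Module.End F V → Submodule F V := fun h => W₀.map (1 + tOf h)
  have hfD : ∀ h ∈ unipDir U, fOf h ∈ unipDir U := fun h hh =>
    Submodule.add_mem _ (Submodule.add_mem _ hh₀D (Submodule.sub_mem _ hh (htD h hh)))
      (hcomm _ (htD h hh))
  -- the key computation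
  have hexp : ∀ h ∈ unipDir U, ∀ t ∈ unipDir U, ∀ w,
      (f + (h₀ + h + (t ∘ₗ f - f ∘ₗ t))) (w + t w) = (1 + t) (f w + h₀ w) + h w := by
    intro h hh t ht w
    have h1 : h₀ (t w) = 0 := hh₀D.1 _ (ht.2 w)
    have h2 : h (t w) = 0 := hh.1 _ (ht.2 w)
    have h3 : t (f (t w)) = 0 := ht.1 _ (hf (ht.2 w))
    have h4 : t (t w) = 0 := ht.1 _ (ht.2 w)
    have h5 : t (h₀ w) = 0 := ht.1 _ (hh₀D.2 w)
    simp only [LinearMap.add_apply, LinearMap.sub_apply, LinearMap.comp_apply, map_add,
      Module.End.one_apply, h1, h2, h3, h4, h5, map_zero]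
    abel
  have hWU : ∀ t ∈ unipDir U, W₀.map (1 + t) ⊓ U = ⊥ ∧ (W₀.map (1 + t)).map U.mkQ = W₂ := by
    intro t ht
    constructor
    · rw [Submodule.eq_bot_iff]
      rintro _ ⟨⟨w, hw, rfl⟩, h⟩
      have h1 := hmk0 _ h
      rw [LinearMap.add_apply, map_add, hmk0 _ (ht.2 w), add_zero] at h1
      rw [LinearMap.add_apply, hW₀inj w hw h1]
      simp
    · rw [← Submodule.map_comp]
      have e : U.mkQ ∘ₗ (1 + t) = U.mkQ := LinearMap.ext fun x => by
        simp only [LinearMap.comp_apply, LinearMap.add_apply, Module.End.one_apply, map_add,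
          hmk0 _ (ht.2 x), add_zero]
      rw [e, hW₀, ← Submodule.map_comp, hs, Submodule.map_id]
  rw [← Finset.card_sigma]
  symm
  refine Finset.card_bij (fun h _ => (⟨WOf h, fOf h⟩ : Σ _ : Submodule F V, Module.End F V))
    (fun h hh => ?_) (fun h hh h' hh' heq => ?_) (fun x hx => ?_)
  · have hh := mem_dirSet.1 hh
    refine Finset.mem_sigma.2 ⟨(hWs _).2 (hWU _ (htD h hh)),
      Finset.mem_filter.2 ⟨mem_dirSet.2 (hfD h hh), ?_⟩⟩
    rintro _ ⟨w, hw, rfl⟩
    rw [Submodule.mem_comap]
    have e := hexp (h - tOf h) (Submodule.sub_mem _ hh (htD h hh)) (tOf h) (htD h hh) w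
    have hk : (h - tOf h) w = 0 := by simp [tOf, hp0 w hw]
    rw [hk, add_zero] at e
    show (f + fOf h) (w + tOf h w) ∈ _
    rw [e]
    exact Submodule.mem_map_of_mem (hfW₀ w hw)
  · have hh := mem_dirSet.1 hh
    have hh' := mem_dirSet.1 hh'
    simp only [Sigma.mk.injEq, heq_eq_eq] at heq
    obtain ⟨hW, hf'⟩ := heq
    have ht : tOf h = tOf h' := by
      refine LinearMap.ext fun x => ?_
      have hw : (1 + tOf h) (p x) ∈ WOf h' := hW ▸ Submodule.mem_map_of_mem (hpW x)
      obtain ⟨w', hw', he⟩ := hw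
      have e1 := congrArg U.mkQ he
      simp only [LinearMap.add_apply, Module.End.one_apply, map_add, hmk0 _ ((htD h hh).2 _),
        hmk0 _ ((htD h' hh').2 _), add_zero] at e1
      have e2 : w' = p x := by
        rw [← sub_eq_zero]
        refine hW₀inj _ (W₀.sub_mem hw' (hpW x)) ?_
        rw [map_sub, e1, sub_self]
      subst e2
      simpa [tOf, hpp] using he.symm
    show h = h'
    have := hf'
    simp only [fOf, ht] at this
    simpa using this
  · obtain ⟨W, hh⟩ := x
    obtain ⟨hW, hh'⟩ := Finset.mem_sigma.1 hx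
    obtain ⟨hWU', hWmap⟩ := (hWs W).1 hW
    obtain ⟨hhD, hinvW⟩ := Finset.mem_filter.1 hh'
    replace hhD := mem_dirSet.1 hhD
    -- the inverse of the projection of `W`
    let e := U.mkQ.domRestrict W
    have he : LinearMap.ker e = ⊥ := by
      rw [Submodule.eq_bot_iff]
      intro x hx
      exact Subtype.ext ((Submodule.eq_bot_iff _).1 hWU' x ⟨x.2, hmem _ (LinearMap.mem_ker.1 hx)⟩)
    obtain ⟨r, hr⟩ := LinearMap.exists_leftInverse_of_injective e he
    have hsur : ∀ z ∈ W₂, U.mkQ (r z : V) = z := by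
      intro z hz
      rw [← hWmap] at hz
      obtain ⟨w, hw, rfl⟩ := hz
      have := congrArg (fun v : W => U.mkQ (v : V)) (LinearMap.congr_fun hr ⟨w, hw⟩)
      simpa [e] using this
    set t : Module.End F V := W.subtype ∘ₗ r ∘ₗ W₂.subtype ∘ₗ π ∘ₗ U.mkQ - p with ht
    have htD' : t ∈ unipDir U := by
      refine ⟨fun x hx => by simp [ht, hmk0 x hx, hpU x hx], fun x => hmem _ ?_⟩
      simp only [ht, LinearMap.sub_apply, LinearMap.comp_apply, map_sub, Submodule.coe_subtype]
      rw [hsur _ (π _).2, hmp, sub_self]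
    have htp : t ∘ₗ p = t := LinearMap.ext fun x => by
      simp only [ht, LinearMap.sub_apply, LinearMap.comp_apply, Submodule.coe_subtype, hpp]
      rw [hmp, hπ' _ (π _).2]
    have hW₀t : W₀.map (1 + t) = W := by
      apply le_antisymm
      · rintro _ ⟨w, hw, rfl⟩
        simp only [ht, LinearMap.add_apply, LinearMap.sub_apply, LinearMap.comp_apply,
          Module.End.one_apply, Submodule.coe_subtype, hp0 w hw, add_sub_cancel]
        exact (r _).2
      · intro w hw
        refine ⟨p w, hpW w, ?_⟩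
        simp only [ht, LinearMap.add_apply, LinearMap.sub_apply, LinearMap.comp_apply,
          Module.End.one_apply, Submodule.coe_subtype, hpp, add_sub_cancel]
        have hz : U.mkQ w ∈ W₂ := hWmap ▸ Submodule.mem_map_of_mem hw
        rw [hmp, hπ' _ (π _).2, hπ' _ hz]
        exact congrArg Subtype.val (LinearMap.congr_fun hr ⟨w, hw⟩)
    set k : Module.End F V := hh - h₀ - (t ∘ₗ f - f ∘ₗ t) with hk
    have hkD : k ∈ unipDir U :=
      Submodule.sub_mem _ (Submodule.sub_mem _ hhD hh₀D) (hcomm t htD')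
    have hkp : k ∘ₗ p = 0 := by
      refine LinearMap.ext fun x => ?_
      have e1 := hexp k hkD t htD' (p x)
      have e0 : h₀ + k + (t ∘ₗ f - f ∘ₗ t) = hh := by rw [hk]; abel
      rw [e0] at e1
      have hin : (f + hh) (p x + t (p x)) ∈ W := hinvW (hW₀t ▸ Submodule.mem_map_of_mem (hpW x))
      have hin2 : (1 + t) (f (p x) + h₀ (p x)) ∈ W :=
        hW₀t ▸ Submodule.mem_map_of_mem (hfW₀ _ (hpW x))
      have h3 : k (p x) ∈ W := by
        rw [e1] at hin
        exact (Submodule.add_mem_iff_right W hin2).1 hin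
      exact (Submodule.eq_bot_iff _).1 hWU' _ ⟨h3, hkD.2 _⟩
    refine ⟨t + k, mem_dirSet.2 (Submodule.add_mem _ htD' hkD), ?_⟩
    have hto : tOf (t + k) = t := by
      show (t + k) ∘ₗ p = t
      rw [LinearMap.add_comp, htp, hkp, add_zero]
    simp only [WOf, fOf, hto, hW₀t]
    congr 1
    rw [hk]
    abel

open Classical in
/-- The cuspidal function sums to zero over `f + unipDir U`. -/
theorem sum_cusp_dir : ∀ (n : ℕ) {V : Type*} [AddCommGroup V] [Module F V] [FiniteDimensional F V],
    finrank F V = n → ∀ (U : Submodule F V) (f : Module.End F V), Inv f U → U ≠ ⊥ → U ≠ ⊤ →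
      ∑ h ∈ dirSet U, cusp θ (f + h) = 0 := by
  intro n
  induction n using Nat.strong_induction_on with
  | _ n ih =>
  intro V _ _ _ hn U f hf hU0 hU1
  haveI := finite_space F V
  haveI := finite_submodule F V
  letI : Fintype (Submodule F V) := Fintype.ofFinite _
  haveI := finite_submodule F (V ⧸ U)
  letI : Fintype (Submodule F (V ⧸ U)) := Fintype.ofFinite _
  set N : ℂ := ((dirSet U).card : ℂ) with hN
  let S : Submodule F V → ℂ := fun W =>
    ∑ h ∈ (dirSet U).filter (fun h => Inv (f + h) W), cusp θ (rst (f + h) W)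
  -- the total
  have htot : ∑ W, S W = N * liftSum θ f := by
    simp only [S]
    simp only [Finset.sum_filter]
    rw [Finset.sum_comm]
    rw [hN, ← nsmul_eq_mul, ← Finset.sum_const]
    refine Finset.sum_congr rfl fun h hh => ?_
    rw [← liftSum_add_dir θ hf (mem_dirSet.1 hh), liftSum_eq_sum θ (f + h), ← Finset.sum_filter]
    refine Finset.sum_congr ?_ fun _ _ => rfl
    ext W
    simp [mem_invSub]
  have hle : ∑ W ∈ Finset.univ.filter (· ≤ U), S W
      = N * liftSum θ (f.restrict hf : Module.End F U) := by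
    rw [← sum_le_eq_liftSum θ hf, Finset.mul_sum]
    symm
    refine Finset.sum_subset_zero_on_sdiff (fun W hW => by
      simp only [Finset.mem_filter, Finset.mem_univ, true_and] at hW ⊢
      exact hW.2) (fun W hW => ?_) (fun W hW => ?_)
    · simp only [Finset.mem_sdiff, Finset.mem_filter, Finset.mem_univ, true_and, mem_invSub] at hW
      refine Finset.sum_eq_zero fun h hh => absurd ⟨?_, hW.1⟩ hW.2
      obtain ⟨hh, hi⟩ := Finset.mem_filter.1 hh
      intro x hx
      have := hi hx
      rwa [Submodule.mem_comap, LinearMap.add_apply, (mem_dirSet.1 hh).1 x (hW.1 hx), add_zero]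
        at this
    · simp only [Finset.mem_filter, mem_invSub] at hW
      have hall : ∀ h ∈ dirSet U, Inv (f + h) W := fun h hh x hx => by
        rw [Submodule.mem_comap, LinearMap.add_apply, (mem_dirSet.1 hh).1 x (hW.2 hx), add_zero]
        exact hW.1 hx
      simp only [S]
      rw [Finset.filter_true_of_mem hall, hN, ← nsmul_eq_mul, ← Finset.sum_const]
      refine Finset.sum_congr rfl fun h hh => congrArg _ (LinearMap.ext fun x => Subtype.ext ?_)
      rw [rst_apply hW.1, rst_apply (hall h hh), LinearMap.add_apply,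
        (mem_dirSet.1 hh).1 _ (hW.2 x.2), add_zero]
  have hdisj : ∑ W ∈ Finset.univ.filter (fun W => W ⊓ U = ⊥), S W
      = N * liftSum θ (U.mapQ U f hf) := by
    rw [← Finset.sum_fiberwise (Finset.univ.filter (fun W => W ⊓ U = ⊥))
      (fun W => W.map U.mkQ), liftSum_eq_sum θ (U.mapQ U f hf), Finset.mul_sum]
    symm
    refine Finset.sum_subset_zero_on_sdiff (Finset.subset_univ _) (fun W₂ hW₂ => ?_)
      (fun W₂ hW₂ => ?_)
    · refine Finset.sum_eq_zero fun W hW => Finset.sum_eq_zero fun h hh => absurd ?_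
        (Finset.mem_sdiff.1 hW₂).2
      obtain ⟨hh, hi⟩ := Finset.mem_filter.1 hh
      rw [mem_invSub, ← (Finset.mem_filter.1 hW).2]
      rintro _ ⟨x, hx, rfl⟩
      exact ⟨(f + h) x, hi hx, by
        rw [LinearMap.add_apply, map_add, show U.mkQ (h x) = 0 from
          (Submodule.Quotient.mk_eq_zero U).2 ((mem_dirSet.1 hh).2 x), add_zero]; rfl⟩
    · have hW₂ := mem_invSub.1 hW₂
      have hval : ∀ W ∈ (Finset.univ.filter (fun W => W ⊓ U = ⊥)).filter
          (fun W => W.map U.mkQ = W₂),
          S W = (((dirSet U).filter fun h => Inv (f + h) W).card : ℂ) *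
            cusp θ (rst (U.mapQ U f hf) W₂) := by
        intro W hW
        simp only [Finset.mem_filter, Finset.mem_univ, true_and] at hW
        obtain ⟨hWU, rfl⟩ := hW
        rw [← nsmul_eq_mul, ← Finset.sum_const]
        refine Finset.sum_congr rfl fun h hh => ?_
        obtain ⟨hh, hi⟩ := Finset.mem_filter.1 hh
        let e : W ≃ₗ[F] W.map U.mkQ := LinearEquiv.ofBijective
          ((U.mkQ.domRestrict W).codRestrict (W.map U.mkQ) fun x => Submodule.mem_map_of_mem x.2)
          ⟨fun x y hxy => Subtype.ext (sub_eq_zero.1 ((Submodule.eq_bot_iff _).1 hWU _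
              ⟨W.sub_mem x.2 y.2, (Submodule.Quotient.eq U).1 (congrArg Subtype.val hxy)⟩)),
            fun z => by
              obtain ⟨x, hx, hxz⟩ := z.2
              exact ⟨⟨x, hx⟩, Subtype.ext hxz⟩⟩
        rw [← cusp_conj θ e (rst (f + h) W)]
        congr 1
        refine LinearMap.ext fun z => ?_
        obtain ⟨x, rfl⟩ := e.surjective z
        simp only [LinearEquiv.conjAlgEquiv_apply, LinearMap.coe_comp, Function.comp_apply,
          LinearEquiv.coe_coe, LinearEquiv.symm_apply_apply]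
        refine Subtype.ext ?_
        rw [rst_apply hW₂]
        show U.mkQ (rst (f + h) W x : V) = U.mapQ U f hf (U.mkQ (x : V))
        rw [rst_apply hi, LinearMap.add_apply, map_add, show U.mkQ (h x) = 0 from
          (Submodule.Quotient.mk_eq_zero U).2 ((mem_dirSet.1 hh).2 x), add_zero]
        rfl
      rw [Finset.sum_congr rfl hval, ← Finset.sum_mul]
      congr 1
      rw [hN]
      exact_mod_cast (card_pairs hf hW₂ _ fun W => by simp).symm
  have hmix : ∀ W : Submodule F V, ¬ W ≤ U → W ⊓ U ≠ ⊥ → W ≠ ⊤ → S W = 0 := by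
    intro W hW1 hW2 hW3
    simp only [S]
    by_cases hex : ∃ h₁ ∈ dirSet U, Inv (f + h₁) W
    swap
    · push Not at hex
      rw [Finset.filter_false_of_mem hex, Finset.sum_empty]
    obtain ⟨h₁, hh₁, hi₁⟩ := hex
    have hh₁' := mem_dirSet.1 hh₁
    let Kd : Submodule F (Module.End F V) :=
      { carrier := {h | h ∈ unipDir U ∧ ∀ x ∈ W, h x ∈ W}
        zero_mem' := ⟨zero_mem _, fun x _ => W.zero_mem⟩
        add_mem' := fun {a b} ha hb => ⟨add_mem ha.1 hb.1, fun x hx =>
          W.add_mem (ha.2 x hx) (hb.2 x hx)⟩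
        smul_mem' := fun c a ha => ⟨Submodule.smul_mem _ c ha.1, fun x hx =>
          W.smul_mem c (ha.2 x hx)⟩ }
    set U' : Submodule F W := U.comap W.subtype with hU'
    have hU'0 : U' ≠ ⊥ := fun h0 => hW2 (by
      rw [Submodule.eq_bot_iff]
      rintro x ⟨hx, hxU⟩
      have : (⟨x, hx⟩ : W) ∈ U' := hxU
      rw [h0, Submodule.mem_bot] at this
      exact congrArg Subtype.val this)
    have hU'1 : U' ≠ ⊤ := fun h1 => hW1 (fun x hx => by
      have : (⟨x, hx⟩ : W) ∈ U' := h1 ▸ Submodule.mem_top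
      exact this)
    let φ : Kd →+ unipDir U' :=
      { toFun := fun k => ⟨k.1.restrict k.2.2, ⟨fun x hx => Subtype.ext (k.2.1.1 x.1 hx),
          fun x => k.2.1.2 x.1⟩⟩
        map_zero' := rfl
        map_add' := fun a b => rfl }
    have hφ : Function.Surjective φ := by
      rintro ⟨h', hh'⟩
      let q : W →ₗ[F] V ⧸ U := U.mkQ ∘ₗ W.subtype
      have hker : LinearMap.ker q ≤ LinearMap.ker (W.subtype ∘ₗ h') := fun x hx => by
        have h1 : x ∈ U' := (Submodule.Quotient.mk_eq_zero U).1 hx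
        simp [hh'.1 x h1]
      let g : LinearMap.range q →ₗ[F] V :=
        ((LinearMap.ker q).liftQ (W.subtype ∘ₗ h') hker) ∘ₗ
          (q.quotKerEquivRange.symm : LinearMap.range q →ₗ[F] W ⧸ LinearMap.ker q)
      obtain ⟨P, hP⟩ := LinearMap.exists_leftInverse_of_injective (LinearMap.range q).subtype
        (Submodule.ker_subtype _)
      let k : Module.End F V := g ∘ₗ P ∘ₗ U.mkQ
      have hkW : ∀ x : W, k x = h' x := fun x => by
        have e1 : P (U.mkQ x) = q.quotKerEquivRange (Submodule.Quotient.mk x) :=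
          LinearMap.congr_fun hP ⟨q x, LinearMap.mem_range_self q x⟩
        show g (P (U.mkQ x)) = _
        rw [e1]
        simp [g]
      have hg : ∀ z, g z ∈ U := fun z => by
        obtain ⟨y, hy⟩ := Submodule.Quotient.mk_surjective _ (q.quotKerEquivRange.symm z)
        simp only [g, LinearMap.coe_comp, Function.comp_apply, LinearEquiv.coe_coe, ← hy]
        exact hh'.2 y
      refine ⟨⟨k, ⟨fun x hx => by simp [k, (Submodule.Quotient.mk_eq_zero U).2 hx],
        fun x => hg _⟩, fun x hx => (hkW ⟨x, hx⟩).symm ▸ (h' ⟨x, hx⟩).2⟩, ?_⟩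
      exact Subtype.ext (LinearMap.ext fun x => Subtype.ext (hkW x))
    haveI : Finite (Module.End F V) := Finite.of_injective _ DFunLike.coe_injective
    haveI := finite_space F W
    haveI : Finite (Module.End F W) := Finite.of_injective _ DFunLike.coe_injective
    letI : Fintype Kd := Fintype.ofFinite _
    letI : Fintype (unipDir U') := Fintype.ofFinite _
    have hU'inv : Inv (rst (f + h₁) W) U' := fun x hx => by
      show (rst (f + h₁) W x : V) ∈ U
      rw [rst_apply hi₁]
      exact inv_add_dir hf hh₁' hx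
    have h1 : ∑ h ∈ (dirSet U).filter (fun h => Inv (f + h) W), cusp θ (rst (f + h) W)
        = ∑ k : Kd, cusp θ (rst (f + h₁) W + (φ k : Module.End F W)) := by
      symm
      refine Finset.sum_bij (fun k _ => h₁ + k.1)
        (fun k _ => Finset.mem_filter.2 ⟨mem_dirSet.2 (add_mem hh₁' k.2.1), fun x hx => ?_⟩)
        (fun a _ b _ h => Subtype.ext (add_left_cancel h)) (fun h hh => ?_) (fun k _ => ?_)
      · rw [Submodule.mem_comap, ← add_assoc, LinearMap.add_apply]
        exact W.add_mem (hi₁ hx) (k.2.2 x hx)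
      · obtain ⟨hh, hi⟩ := Finset.mem_filter.1 hh
        refine ⟨⟨h - h₁, sub_mem (mem_dirSet.1 hh) hh₁', fun x hx => ?_⟩, Finset.mem_univ _,
          add_sub_cancel _ _⟩
        have e : (h - h₁) x = (f + h) x - (f + h₁) x := by
          simp only [LinearMap.sub_apply, LinearMap.add_apply]; abel
        rw [e]
        exact W.sub_mem (hi hx) (hi₁ hx)
      · congr 1
        have hik : Inv (f + (h₁ + k.1)) W := fun x hx => by
          rw [Submodule.mem_comap, ← add_assoc, LinearMap.add_apply]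
          exact W.add_mem (hi₁ hx) (k.2.2 x hx)
        refine LinearMap.ext fun x => Subtype.ext ?_
        rw [rst_apply hik, LinearMap.add_apply, Submodule.coe_add, rst_apply hi₁]
        simp only [LinearMap.add_apply]
        rw [add_assoc]
        rfl
    rw [h1, sum_comp_surj φ hφ (fun b => cusp θ (rst (f + h₁) W + (b : Module.End F W)))]
    have h2 : ∑ b : unipDir U', cusp θ (rst (f + h₁) W + (b : Module.End F W))
        = ∑ h ∈ dirSet U', cusp θ (rst (f + h₁) W + h) :=
      (Finset.sum_subtype (dirSet U') (fun x => mem_dirSet)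
        (fun h => cusp θ (rst (f + h₁) W + h))).symm
    rw [h2, ih _ (hn ▸ Submodule.finrank_lt hW3) rfl U' _ hU'inv hU'0 hU'1, mul_zero]
  -- assembling
  have hbot : S ⊥ = 0 := Finset.sum_eq_zero fun h _ => cusp_rst_bot θ _
  have hsplit : ∑ W, S W = (∑ W ∈ Finset.univ.filter (· ≤ U), S W)
      + (∑ W ∈ Finset.univ.filter (fun W => W ⊓ U = ⊥), S W) + S ⊤ := by
    have e : ∀ W, S W = (if W ≤ U then S W else 0) + (if W ⊓ U = ⊥ then S W else 0)
        + (if W = ⊤ then S W else 0) := by
      intro W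
      by_cases hW : W = ⊤
      · subst hW
        rw [if_neg (fun h => hU1 (top_le_iff.1 h)), if_neg (fun h => hU0 (by rwa [top_inf_eq] at h)),
          if_pos rfl]
        ring
      rw [if_neg hW, add_zero]
      by_cases h1 : W ≤ U <;> by_cases h2 : W ⊓ U = ⊥
      · rw [inf_eq_left.2 h1] at h2
        subst h2
        simp [hbot]
      · rw [if_pos h1, if_neg h2, add_zero]
      · rw [if_neg h1, if_pos h2, zero_add]
      · rw [if_neg h1, if_neg h2, add_zero, hmix W h1 h2 hW]
    conv_lhs => rw [Finset.sum_congr rfl fun W _ => e W]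
    rw [Finset.sum_add_distrib, Finset.sum_add_distrib, Finset.sum_ite_eq', Finset.sum_filter,
      Finset.sum_filter]
    simp
  rw [hsplit, hle, hdisj, liftSum_split θ f U hf, mul_add, add_eq_left] at htot
  rw [← htot]
  simp only [S]
  rw [Finset.filter_true_of_mem (s := dirSet U) (p := fun h => Inv (f + h) ⊤) (fun h _ => le_top)]
  exact Finset.sum_congr rfl fun h _ => (cusp_rst_top θ _).symm

end CfsgLib.GLCuspidal
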