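import Cfsg.Agent.Lib.GLCuspidal.Def

/-!
# The value of the cuspidal function at the identity
-/

set_option autoImplicit false
set_option linter.unusedSectionVars false
set_option linter.style.haveILetI false

namespace CfsgLib.GLCuspidal

open Polynomial Module

variable {F : Type*} [Field F] [Finite F] {K : Type*} [Field K] [Algebra F K] (θ : K → ℂ)

/-- `(1 - q)(1 - q^2) ⋯ (1 - q^(k-1))`, zero for `k = 0`. -/
noncomputable def cuspDeg (q : ℂ) (k : ℕ) : ℂ :=
  if k = 0 then 0 else ∏ i ∈ Finset.Ico 1 k, (1 - q ^ i)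

theorem cuspDeg_step (q : ℂ) (k : ℕ) :
    cuspDeg q (k + 1) + q ^ k * cuspDeg q k = cuspDeg q k + (if k = 0 then 1 else 0) := by
  rcases Nat.eq_zero_or_pos k with rfl | hk
  · simp [cuspDeg]
  · simp only [cuspDeg, Nat.succ_ne_zero, hk.ne', if_false]
    rw [Finset.prod_Ico_succ_top hk]
    ring

theorem card_lifts {V : Type*} [AddCommGroup V] [Module F V] [FiniteDimensional F V]
    (U : Submodule F V) (hU : finrank F U = 1) (W₂ : Submodule F (V ⧸ U)) :
    Nat.card {W : Submodule F V // W ⊓ U = ⊥ ∧ W.map U.mkQ = W₂}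
      = Nat.card F ^ finrank F W₂ := by
  obtain ⟨s, hs⟩ := U.mkQ.exists_rightInverse_of_surjective U.range_mkQ
  have hs' : ∀ z, U.mkQ (s z) = z := LinearMap.congr_fun hs
  have hmk0 : ∀ x ∈ U, U.mkQ x = 0 := fun x hx => (Submodule.Quotient.mk_eq_zero U).2 hx
  let g : (W₂ →ₗ[F] U) → (W₂ →ₗ[F] V) := fun h => s ∘ₗ W₂.subtype + U.subtype ∘ₗ h
  have hg : ∀ h z, U.mkQ (g h z) = (z : V ⧸ U) := fun h z => by
    simp only [g, LinearMap.add_apply, LinearMap.comp_apply, Submodule.coe_subtype, map_add, hs',
      hmk0 _ (h z).2, add_zero]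
  have hmem : ∀ h, (LinearMap.range (g h)) ⊓ U = ⊥ ∧ (LinearMap.range (g h)).map U.mkQ = W₂ := by
    intro h
    constructor
    · rw [Submodule.eq_bot_iff]
      rintro _ ⟨⟨z, rfl⟩, hz⟩
      have := hg h z
      rw [hmk0 _ hz] at this
      rw [show z = 0 from Subtype.ext this.symm, map_zero]
    · ext y
      constructor
      · rintro ⟨_, ⟨z, rfl⟩, rfl⟩
        rw [hg]
        exact z.2
      · intro hy
        exact ⟨_, ⟨⟨y, hy⟩, rfl⟩, hg h _⟩
  have hbij : Function.Bijective (fun h : W₂ →ₗ[F] U =>
      (⟨LinearMap.range (g h), hmem h⟩ : {W : Submodule F V // W ⊓ U = ⊥ ∧ W.map U.mkQ = W₂})) := by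
    constructor
    · intro h h' e
      refine LinearMap.ext fun z => ?_
      have he : LinearMap.range (g h) = LinearMap.range (g h') := congrArg Subtype.val e
      have h1 : g h z ∈ LinearMap.range (g h') := he ▸ LinearMap.mem_range_self _ z
      obtain ⟨z', hz'⟩ := h1
      have h2 := congrArg U.mkQ hz'
      rw [hg, hg] at h2
      rw [Subtype.ext h2] at hz'
      exact Subtype.ext (by simpa [g] using hz'.symm)
    · rintro ⟨W, hW1, hW2⟩
      let e := U.mkQ.domRestrict W
      have he : LinearMap.ker e = ⊥ := by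
        rw [Submodule.eq_bot_iff]
        intro x hx
        exact Subtype.ext ((Submodule.eq_bot_iff _).1 hW1 x
          ⟨x.2, (Submodule.Quotient.mk_eq_zero U).1 (LinearMap.mem_ker.1 hx)⟩)
      obtain ⟨r, hr⟩ := LinearMap.exists_leftInverse_of_injective e he
      have hsur : ∀ z ∈ W₂, U.mkQ (r z : V) = z := by
        intro z hz
        rw [← hW2] at hz
        obtain ⟨w, hw, rfl⟩ := hz
        have := congrArg (fun v : W => U.mkQ (v : V)) (LinearMap.congr_fun hr ⟨w, hw⟩)
        simpa [e] using this
      refine ⟨LinearMap.codRestrict U (W.subtype ∘ₗ r ∘ₗ W₂.subtype - s ∘ₗ W₂.subtype)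
        (fun z => (Submodule.Quotient.mk_eq_zero U).1 ?_), Subtype.ext ?_⟩
      · show U.mkQ _ = 0
        simp only [LinearMap.sub_apply, LinearMap.comp_apply, Submodule.coe_subtype, map_sub, hs',
          hsur _ z.2, sub_self]
      · have hgz : ∀ z : W₂, g (LinearMap.codRestrict U (W.subtype ∘ₗ r ∘ₗ W₂.subtype - s ∘ₗ W₂.subtype)
            (fun z => (Submodule.Quotient.mk_eq_zero U).1 (by
              show U.mkQ _ = 0
              simp only [LinearMap.sub_apply, LinearMap.comp_apply, Submodule.coe_subtype, map_sub,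
                hs', hsur _ z.2, sub_self]))) z = r (z : V ⧸ U) := fun z => by simp [g]
        refine le_antisymm ?_ ?_
        · rintro _ ⟨z, rfl⟩
          rw [hgz]
          exact (r _).2
        · intro w hw
          have hz : U.mkQ w ∈ W₂ := hW2 ▸ Submodule.mem_map_of_mem hw
          refine ⟨⟨U.mkQ w, hz⟩, ?_⟩
          rw [hgz]
          exact congrArg Subtype.val (LinearMap.congr_fun hr ⟨w, hw⟩)
  rw [← Nat.card_congr (Equiv.ofBijective _ hbij), Module.natCard_eq_pow_finrank (K := F),
    Module.finrank_linearMap, hU, mul_one]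

open Classical in
/-- The Gaussian identity. -/
theorem sum_cuspDeg : ∀ (n : ℕ) {V : Type*} [AddCommGroup V] [Module F V] [FiniteDimensional F V]
    [Fintype (Submodule F V)], finrank F V = n →
    ∑ W : Submodule F V, cuspDeg (Nat.card F : ℂ) (finrank F W) = n := by
  intro n
  induction n with
  | zero =>
    intro V _ _ _ _ hn
    haveI : Subsingleton V := finrank_zero_iff.1 hn
    simp [cuspDeg, Module.finrank_zero_of_subsingleton]
  | succ n ih =>
    intro V _ _ _ _ hn
    set q : ℂ := (Nat.card F : ℂ) with hq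
    haveI : Nontrivial V := Module.nontrivial_of_finrank_pos (R := F) (by omega)
    obtain ⟨v, hv⟩ := exists_ne (0 : V)
    set U := Submodule.span F {v} with hU
    have hU1 : finrank F U = 1 := finrank_span_singleton hv
    have hQn : finrank F (V ⧸ U) = n := by
      have := U.finrank_quotient_add_finrank
      omega
    haveI := finite_submodule F (V ⧸ U)
    letI : Fintype (Submodule F (V ⧸ U)) := Fintype.ofFinite _
    have hatom : ∀ W : Submodule F V, (¬ U ≤ W) ↔ W ⊓ U = ⊥ := fun W => by
      constructor
      · intro h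
        rcases (nonzero_span_atom v hv).le_iff.1 (inf_le_right : W ⊓ U ≤ U) with e | e
        · exact e
        · exact absurd (inf_eq_right.1 e) h
      · intro h hle
        rw [inf_eq_right.2 hle, hU, Submodule.span_singleton_eq_bot] at h
        exact hv h
    rw [← Finset.sum_filter_add_sum_filter_not Finset.univ (fun W => U ≤ W)]
    have h1 : ∑ W ∈ Finset.univ.filter (fun W => U ≤ W), cuspDeg q (finrank F W)
        = ∑ W₂ : Submodule F (V ⧸ U), cuspDeg q (finrank F W₂ + 1) := by
      symm
      refine Finset.sum_bij (fun W₂ _ => W₂.comap U.mkQ)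
        (fun W₂ _ => Finset.mem_filter.2 ⟨Finset.mem_univ _, fun x hx => by
          rw [Submodule.mem_comap, show U.mkQ x = 0 from (Submodule.Quotient.mk_eq_zero U).2 hx]
          exact W₂.zero_mem⟩)
        (fun a _ b _ h => Submodule.comap_injective_of_surjective U.mkQ_surjective h)
        (fun W hW => ⟨W.map U.mkQ, Finset.mem_univ _, by
          rw [Submodule.comap_map_mkQ, sup_eq_right.2 (Finset.mem_filter.1 hW).2]⟩)
        (fun W₂ _ => ?_)
      congr 1
      have e1 := LinearMap.finrank_range_add_finrank_ker (U.mkQ.domRestrict (W₂.comap U.mkQ))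
      have e2 : LinearMap.range (U.mkQ.domRestrict (W₂.comap U.mkQ)) = W₂ := by
        rw [LinearMap.range_domRestrict, Submodule.map_comap_eq_of_surjective U.mkQ_surjective]
      have e3 : finrank F (LinearMap.ker (U.mkQ.domRestrict (W₂.comap U.mkQ))) = finrank F U := by
        rw [LinearMap.ker_domRestrict, Submodule.ker_mkQ]
        exact (Submodule.comapSubtypeEquivOfLe (fun x hx => by
          rw [Submodule.mem_comap, show U.mkQ x = 0 from (Submodule.Quotient.mk_eq_zero U).2 hx]
          exact W₂.zero_mem)).finrank_eq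
      rw [e2, e3, hU1] at e1
      exact e1
    have h2 : ∑ W ∈ Finset.univ.filter (fun W => ¬ U ≤ W), cuspDeg q (finrank F W)
        = ∑ W₂ : Submodule F (V ⧸ U), q ^ finrank F W₂ * cuspDeg q (finrank F W₂) := by
      rw [← Finset.sum_fiberwise (Finset.univ.filter (fun W => ¬ U ≤ W)) (fun W => W.map U.mkQ)]
      refine Finset.sum_congr rfl fun W₂ _ => ?_
      have hc : ∀ W ∈ (Finset.univ.filter (fun W => ¬ U ≤ W)).filter (fun W => W.map U.mkQ = W₂),
          cuspDeg q (finrank F W) = cuspDeg q (finrank F W₂) := by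
        intro W hW
        simp only [Finset.mem_filter, Finset.mem_univ, true_and] at hW
        obtain ⟨hWU, rfl⟩ := hW
        congr 1
        have e1 := LinearMap.finrank_range_add_finrank_ker (U.mkQ.domRestrict W)
        rw [LinearMap.range_domRestrict] at e1
        have e3 : LinearMap.ker (U.mkQ.domRestrict W) = ⊥ := by
          rw [Submodule.eq_bot_iff]
          intro x hx
          exact Subtype.ext ((Submodule.eq_bot_iff _).1 ((hatom W).1 hWU) x
            ⟨x.2, (Submodule.Quotient.mk_eq_zero U).1 (LinearMap.mem_ker.1 hx)⟩)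
        rw [e3, finrank_bot, add_zero] at e1
        exact e1.symm
      rw [Finset.sum_congr rfl hc, Finset.sum_const, nsmul_eq_mul]
      congr 1
      rw [hq, ← Nat.cast_pow, ← card_lifts U hU1 W₂, Nat.card_eq_fintype_card, Fintype.card_subtype]
      congr 2
      ext W
      simp [hatom]
    rw [h1, h2, ← Finset.sum_add_distrib, Finset.sum_congr rfl fun W₂ _ => cuspDeg_step q _,
      Finset.sum_add_distrib, ih hQn]
    rw [Finset.sum_eq_single (⊥ : Submodule F (V ⧸ U))]
    · rw [finrank_bot, if_pos rfl]
      push_cast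
      ring
    · intro W _ hW
      rw [if_neg]
      exact fun h => hW (Submodule.finrank_eq_zero.1 h)
    · exact fun h => absurd (Finset.mem_univ _) h

open Classical in
/-- The cuspidal function at the identity. -/
theorem cusp_one : ∀ (n : ℕ) {V : Type*} [AddCommGroup V] [Module F V] [FiniteDimensional F V],
    finrank F V = n → cusp θ (1 : Module.End F V) = θ 1 * cuspDeg (Nat.card F : ℂ) n := by
  intro n
  induction n using Nat.strong_induction_on with
  | _ n ih =>
  intro V _ _ _ hn
  haveI := finite_submodule F V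
  letI : Fintype (Submodule F V) := Fintype.ofFinite _
  have hL : liftSum θ (1 : Module.End F V) = n * θ 1 := by
    rw [liftSum, LinearMap.charpoly_one, hn, ← C_1, rootSum_pow θ (X_sub_C_ne_zero _)]
    rw [rootSum, Polynomial.map_sub, map_X, map_C, map_one, roots_X_sub_C, Multiset.map_singleton,
      Multiset.sum_singleton]
  have hall : invSub (1 : Module.End F V) = Finset.univ := by
    ext W
    simp only [mem_invSub, Finset.mem_univ, iff_true]
    exact fun x hx => hx
  have hrst : ∀ W : Submodule F V, rst (1 : Module.End F V) W = 1 := fun W => by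
    refine LinearMap.ext fun x => Subtype.ext ?_
    rw [rst_apply (show Inv (1 : Module.End F V) W from fun x hx => hx)]
    rfl
  have h := liftSum_eq_sum θ (1 : Module.End F V)
  rw [hL, hall, ← sum_cuspDeg n hn, Finset.sum_mul] at h
  rw [← Finset.add_sum_erase _ _ (Finset.mem_univ (⊤ : Submodule F V)),
    ← Finset.add_sum_erase _ _ (Finset.mem_univ (⊤ : Submodule F V))] at h
  rw [Finset.sum_congr rfl (fun W hW => (?_ : cusp θ (rst (1 : Module.End F V) W)
    = cuspDeg (Nat.card F : ℂ) (finrank F W) * θ 1)), add_right_cancel_iff] at h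
  · rw [cusp_rst_top, finrank_top, hn] at h
    rw [← h, mul_comm]
  · rw [hrst, ih _ (hn ▸ Submodule.finrank_lt (Finset.ne_of_mem_erase hW)) rfl, mul_comm]

end CfsgLib.GLCuspidal
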