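import Cfsg.Agent.Lib.GLCuspidal.Def
import Cfsg.Agent.Lib.Brauer.CharRing
import Cfsg.Agent.Lib.Frobenius.Induce

/-!
# The cuspidal function on `GL k` is a generalized character
-/

set_option autoImplicit false
set_option linter.unusedSectionVars false
set_option linter.style.haveILetI false

namespace CfsgLib.GLCuspidal

open Polynomial Module Cfsg

variable {F : Type*} [Field F] [Finite F] {K : Type*} [Field K] [Algebra F K] (θ : K → ℂ)
variable {k : ℕ}

/-- The action of a matrix group element. -/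
noncomputable def glEnd : GL (Fin k) F →* Module.End F (Fin k → F) :=
  (Matrix.toLinAlgEquiv' : Matrix (Fin k) (Fin k) F ≃ₐ[F] _).toMonoidHom.comp (Units.coeHom _)

theorem glEnd_apply (g : GL (Fin k) F) :
    glEnd g = Matrix.toLin' (g : Matrix (Fin k) (Fin k) F) := rfl

theorem glEnd_inv_apply (g : GL (Fin k) F) (v : Fin k → F) : glEnd g⁻¹ (glEnd g v) = v := by
  rw [← Module.End.mul_apply, ← map_mul, inv_mul_cancel, map_one]
  rfl

theorem glEnd_apply_inv (g : GL (Fin k) F) (v : Fin k → F) : glEnd g (glEnd g⁻¹ v) = v := by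
  have := glEnd_inv_apply g⁻¹ v
  rwa [inv_inv] at this

theorem glEnd_injective (g : GL (Fin k) F) : Function.Injective (glEnd g) :=
  Function.LeftInverse.injective (glEnd_inv_apply g)

/-- The automorphism given by a group element. -/
noncomputable def glEquiv (g : GL (Fin k) F) : (Fin k → F) ≃ₗ[F] (Fin k → F) :=
  LinearEquiv.ofBijective (glEnd g) ⟨glEnd_injective g,
    Function.RightInverse.surjective (glEnd_apply_inv g)⟩

theorem glEquiv_toLinearMap (g : GL (Fin k) F) :
    ((glEquiv g : (Fin k → F) ≃ₗ[F] (Fin k → F)) : (Fin k → F) →ₗ[F] (Fin k → F)) = glEnd g := rfl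

theorem inv_iff_map_eq (g : GL (Fin k) F) (W : Submodule F (Fin k → F)) :
    Inv (glEnd g) W ↔ W.map (glEnd g) = W := by
  constructor
  · intro h
    refine Submodule.eq_of_le_of_finrank_eq (Submodule.map_le_iff_le_comap.2 h) ?_
    rw [← glEquiv_toLinearMap]
    exact ((glEquiv g).submoduleMap W).finrank_eq.symm
  · intro h
    exact Submodule.map_le_iff_le_comap.1 h.le

theorem map_mul_sub (g h : GL (Fin k) F) (W : Submodule F (Fin k → F)) :
    W.map (glEnd (g * h)) = (W.map (glEnd h)).map (glEnd g) := by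
  rw [map_mul, Module.End.mul_eq_comp, Submodule.map_comp]

theorem map_one_sub (W : Submodule F (Fin k → F)) : W.map (glEnd (1 : GL (Fin k) F)) = W := by
  rw [map_one, Module.End.one_eq_id, Submodule.map_id]

/-- The stabiliser of a subspace. -/
def stab (W : Submodule F (Fin k → F)) : Subgroup (GL (Fin k) F) where
  carrier := {g | W.map (glEnd g) = W}
  one_mem' := map_one_sub W
  mul_mem' := fun {a b} ha hb => by
    show W.map (glEnd (a * b)) = W
    rw [map_mul_sub, hb, ha]
  inv_mem' := fun {a} ha => by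
    show W.map (glEnd a⁻¹) = W
    have h : W.map (glEnd a) = W := ha
    conv_lhs => rw [← h]
    rw [← map_mul_sub, inv_mul_cancel, map_one_sub]

theorem mem_stab {W : Submodule F (Fin k → F)} {g : GL (Fin k) F} :
    g ∈ stab W ↔ W.map (glEnd g) = W := Iff.rfl

theorem exists_map_eq {W W' : Submodule F (Fin k → F)} (h : finrank F W = finrank F W') :
    ∃ x : GL (Fin k) F, W.map (glEnd x) = W' := by
  obtain ⟨C, hC⟩ := W.exists_isCompl
  obtain ⟨C', hC'⟩ := W'.exists_isCompl
  have h1 := Submodule.finrank_add_eq_of_isCompl hC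
  have h2 := Submodule.finrank_add_eq_of_isCompl hC'
  let e : (Fin k → F) ≃ₗ[F] (Fin k → F) := (Submodule.prodEquivOfIsCompl W C hC).symm.trans
    (((LinearEquiv.ofFinrankEq W W' h).prodCongr
      (LinearEquiv.ofFinrankEq C C' (by omega))).trans (Submodule.prodEquivOfIsCompl W' C' hC'))
  have hu : IsUnit (LinearMap.toMatrix' (e : (Fin k → F) →ₗ[F] (Fin k → F))) :=
    ⟨⟨LinearMap.toMatrix' (e : (Fin k → F) →ₗ[F] (Fin k → F)),
      LinearMap.toMatrix' (e.symm : (Fin k → F) →ₗ[F] (Fin k → F)),
      by rw [← LinearMap.toMatrix'_comp, e.comp_symm, LinearMap.toMatrix'_id],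
      by rw [← LinearMap.toMatrix'_comp, e.symm_comp, LinearMap.toMatrix'_id]⟩, rfl⟩
  refine ⟨hu.unit, ?_⟩
  have hg : glEnd hu.unit = (e : (Fin k → F) →ₗ[F] (Fin k → F)) := by
    rw [glEnd_apply, IsUnit.unit_spec, Matrix.toLin'_toMatrix']
  rw [hg]
  refine Submodule.eq_of_le_of_finrank_eq ?_ ((e.submoduleMap W).finrank_eq.symm.trans h)
  rintro _ ⟨w, hw, rfl⟩
  show e w ∈ W'
  have e1 : (Submodule.prodEquivOfIsCompl W C hC).symm w = (⟨w, hw⟩, 0) :=
    Submodule.prodEquivOfIsCompl_symm_apply_left W C hC ⟨w, hw⟩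
  simp [e, e1]

variable [Fintype (GL (Fin k) F)]

open Classical in
/-- The sum over the invariant subspaces of a given dimension is a generalized character. -/
theorem isGeneralizedCharacter_layer {j : ℕ} [Fintype (GL (Fin j) F)]
    [Fintype (Submodule F (Fin k → F))]
    (hj : IsGeneralizedCharacter (GL (Fin j) F) (fun g => cusp θ (glEnd g))) :
    IsGeneralizedCharacter (GL (Fin k) F) (fun g =>
      ∑ W ∈ Finset.univ.filter (fun W : Submodule F (Fin k → F) => finrank F W = j),
        if Inv (glEnd g) W then cusp θ (rst (glEnd g) W) else 0) := by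
  by_cases hne : ∃ W : Submodule F (Fin k → F), finrank F W = j
  swap
  · push Not at hne
    simp only [Finset.filter_false_of_mem (fun W _ => hne W), Finset.sum_empty]
    exact CfsgLib.Coherence.isGeneralizedCharacter_zero
  obtain ⟨W₀, hW₀⟩ := hne
  set H := stab W₀ with hH
  let b := Module.finBasisOfFinrankEq F W₀ hW₀
  have hinv : ∀ h : H, Inv (glEnd (h : GL (Fin k) F)) W₀ := fun h => (inv_iff_map_eq _ _).2 h.2
  let m : H →* Matrix (Fin j) (Fin j) F :=
    { toFun := fun h => LinearMap.toMatrixAlgEquiv b (rst (glEnd (h : GL (Fin k) F)) W₀)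
      map_one' := by
        have : rst (glEnd ((1 : H) : GL (Fin k) F)) W₀ = 1 := LinearMap.ext fun x => Subtype.ext (by
          rw [rst_apply (hinv 1)]
          simp)
        rw [this, map_one]
      map_mul' := fun h h' => by
        rw [← map_mul]
        congr 1
        refine LinearMap.ext fun x => Subtype.ext ?_
        rw [rst_apply (hinv (h * h')), Module.End.mul_apply, rst_apply (hinv h), rst_apply (hinv h'),
          Subgroup.coe_mul, map_mul, Module.End.mul_apply] }
  letI : Fintype H := Fintype.ofFinite _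
  have hη := CfsgLib.Coherence.isGeneralizedCharacter_comp hj m.toHomUnits
  have hval : ∀ h : H, cusp θ (glEnd (m.toHomUnits h))
      = cusp θ (rst (glEnd (h : GL (Fin k) F)) W₀) := by
    intro h
    rw [← cusp_conj θ b.equivFun (rst (glEnd (h : GL (Fin k) F)) W₀)]
    congr 1
    refine LinearMap.ext fun x => ?_
    obtain ⟨y, rfl⟩ := b.equivFun.surjective x
    rw [glEnd_apply]
    simp only [MonoidHom.coe_toHomUnits, LinearEquiv.conjAlgEquiv_apply, LinearMap.coe_comp,
      Function.comp_apply, LinearEquiv.coe_coe, LinearEquiv.symm_apply_apply, Matrix.toLin'_apply]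
    show (LinearMap.toMatrixAlgEquiv b (rst (glEnd (h : GL (Fin k) F)) W₀)).mulVec (b.equivFun y) = _
    rw [Basis.equivFun_apply, Basis.equivFun_apply]
    exact LinearMap.toMatrix_mulVec_repr b b _ y
  have hind := CfsgLib.Frobenius.isGeneralizedCharacter_indFun H _ hη
  convert hind using 1
  funext g
  symm
  rw [indFun]
  set G : Submodule F (Fin k → F) → ℂ := fun W =>
    if Inv (glEnd g) W then cusp θ (rst (glEnd g) W) else 0 with hG
  have hterm : ∀ x : GL (Fin k) F, extendByZero H (fun h => cusp θ (glEnd (m.toHomUnits h)))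
      (x⁻¹ * g * x) = G (W₀.map (glEnd x)) := by
    intro x
    have hiff : x⁻¹ * g * x ∈ H ↔ Inv (glEnd g) (W₀.map (glEnd x)) := by
      rw [hH, mem_stab, inv_iff_map_eq, ← map_mul_sub]
      constructor
      · intro h
        conv_rhs => rw [← h]
        rw [← map_mul_sub]
        congr 2
        group
      · intro h
        rw [mul_assoc, map_mul_sub, h, ← map_mul_sub, inv_mul_cancel, map_one_sub]
    by_cases hx : x⁻¹ * g * x ∈ H
    · have h1 : extendByZero H (fun h => cusp θ (glEnd (m.toHomUnits h))) (x⁻¹ * g * x)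
          = cusp θ (glEnd (m.toHomUnits ⟨_, hx⟩)) := by
        rw [extendByZero]
        exact Subtype.val_injective.extend_apply _ _ (⟨_, hx⟩ : H)
      rw [h1, hval, hG]
      simp only [if_pos (hiff.1 hx)]
      rw [← cusp_conj θ ((glEquiv x).submoduleMap W₀) (rst (glEnd ((x⁻¹ * g * x : GL (Fin k) F))) W₀)]
      show _ = cusp θ (rst (glEnd g)
        (W₀.map ((glEquiv x : (Fin k → F) ≃ₗ[F] (Fin k → F)) : (Fin k → F) →ₗ[F] (Fin k → F))))
      congr 1
      refine LinearMap.ext fun y => Subtype.ext ?_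
      obtain ⟨z, rfl⟩ := ((glEquiv x).submoduleMap W₀).surjective y
      rw [rst_apply (f := glEnd g) (show Inv (glEnd g) (W₀.map ((glEquiv x :
        (Fin k → F) ≃ₗ[F] (Fin k → F)) : (Fin k → F) →ₗ[F] (Fin k → F))) from hiff.1 hx)]
      simp only [LinearEquiv.conjAlgEquiv_apply, LinearMap.coe_comp,
        Function.comp_apply, LinearEquiv.coe_coe, LinearEquiv.symm_apply_apply,
        LinearEquiv.submoduleMap_apply]
      show glEnd x (rst (glEnd (x⁻¹ * g * x)) W₀ z : Fin k → F) = glEnd g (glEnd x z)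
      rw [rst_apply ((inv_iff_map_eq _ _).2 hx), ← Module.End.mul_apply, ← map_mul,
        ← Module.End.mul_apply, ← map_mul]
      congr 2
      group
    · rw [extendByZero, Function.extend_apply' _ _ _ (fun ⟨h, e⟩ => hx (e ▸ h.2)), hG]
      simp only [if_neg (fun h => hx (hiff.2 h))]
      rfl
  rw [Finset.sum_congr rfl fun x _ => hterm x,
    ← Finset.sum_fiberwise_of_maps_to (s := Finset.univ)
      (t := Finset.univ.filter (fun W : Submodule F (Fin k → F) => finrank F W = j))
      (g := fun x : GL (Fin k) F => W₀.map (glEnd x)) (fun x _ => Finset.mem_filter.2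
        ⟨Finset.mem_univ _, by
          rw [← hW₀, ← glEquiv_toLinearMap]; exact ((glEquiv x).submoduleMap W₀).finrank_eq.symm⟩),
    Finset.mul_sum]
  refine Finset.sum_congr rfl fun W hW => ?_
  rw [Finset.sum_congr rfl fun x hx => by rw [(Finset.mem_filter.1 hx).2], Finset.sum_const,
    nsmul_eq_mul, ← mul_assoc]
  obtain ⟨x₀, hx₀⟩ := exists_map_eq (hW₀.trans (Finset.mem_filter.1 hW).2.symm)
  have hcard : (Finset.univ.filter fun x : GL (Fin k) F => W₀.map (glEnd x) = W).card = Nat.card H := by
    rw [Nat.card_eq_fintype_card, ← Finset.card_univ]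
    symm
    refine Finset.card_bij (fun h _ => x₀ * (h : GL (Fin k) F)) (fun h _ => ?_)
      (fun a _ b _ e => Subtype.ext (mul_left_cancel e)) (fun x hx => ?_)
    · rw [Finset.mem_filter, map_mul_sub, show W₀.map (glEnd (h : GL (Fin k) F)) = W₀ from h.2]
      exact ⟨Finset.mem_univ _, hx₀⟩
    · refine ⟨⟨x₀⁻¹ * x, ?_⟩, Finset.mem_univ _, mul_inv_cancel_left _ _⟩
      rw [hH, mem_stab, map_mul_sub, (Finset.mem_filter.1 hx).2, ← hx₀, ← map_mul_sub,
        inv_mul_cancel, map_one_sub]
  rw [hcard, inv_mul_cancel₀ (Nat.cast_ne_zero.2 Nat.card_pos.ne'), one_mul]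

end CfsgLib.GLCuspidal
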