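import Cfsg.Agent.Lib.GLCuspidal.Norm
import Cfsg.Agent.Lib.GLCuspidal.Lift
import Cfsg.Agent.Lib.GLCuspidal.Degree
import Cfsg.Agent.Lib.GLCuspidal.Induced
import Cfsg.Agent.Lib.CharTheory.Decomp
import Cfsg.Agent.Lib.Blocks.Knorr

/-!
# Cuspidal irreducible characters of `GL n`
-/

set_option autoImplicit false
set_option linter.unusedSectionVars false
set_option linter.style.haveILetI false

namespace CfsgLib.GLCuspidal

open Polynomial Module Cfsg CfsgLib.IBr
open scoped ComplexConjugate

variable {p : ℕ} {M : Ideal AlgInt} (S : PSys p M)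
variable {F : Type*} [Field F] [Fintype F] [DecidableEq F] [CharP F p] [Algebra F S.K]

theorem theta_one (a : ℕ) : theta S a (1 : S.K) = 1 := by
  rw [theta, ← pow_zero S.rootK, lift_rootK_pow, pow_zero, one_pow]

omit [DecidableEq F] in
theorem isGeneralizedCharacter_cusp (n : ℕ) (hfit : ∀ k ≤ n, S.Fits (GL (Fin k) F))
    {a : ℕ} (ha : a.Coprime S.m) : ∀ k ≤ n, ∀ [Fintype (GL (Fin k) F)],
      IsGeneralizedCharacter (GL (Fin k) F) (fun g => cusp (theta S a) (glEnd g)) := by
  classical
  intro k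
  induction k using Nat.strong_induction_on with
  | _ k ih =>
  intro hk inst
  haveI := finite_submodule F (Fin k → F)
  letI : Fintype (Submodule F (Fin k → F)) := Fintype.ofFinite _
  have h1 := isGeneralizedCharacter_liftSum S k (hfit k hk) (a := a) ha
  have h2 : IsGeneralizedCharacter (GL (Fin k) F) (fun g => ∑ j ∈ Finset.range k,
      ∑ W ∈ Finset.univ.filter (fun W : Submodule F (Fin k → F) => finrank F W = j),
        if Inv (glEnd g) W then cusp (theta S a) (rst (glEnd g) W) else 0) := by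
    rw [← Finset.sum_fn]
    refine CfsgLib.Coherence.isGeneralizedCharacter_sum _ _ fun j hj => ?_
    have hjk := Finset.mem_range.1 hj
    letI : Fintype (GL (Fin j) F) := Fintype.ofFinite _
    exact isGeneralizedCharacter_layer (theta S a) (ih j hjk (hjk.le.trans hk))
  convert CfsgLib.Brauer.isGeneralizedCharacter_sub h1 h2 using 1
  funext g
  rw [Pi.sub_apply, cusp_eq, glEnd_apply]
  congr 1
  have hlt : ∀ W : Submodule F (Fin k → F), finrank F W ∈ Finset.range k ↔ W ≠ ⊤ := fun W => by
    rw [Finset.mem_range]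
    constructor
    · rintro h rfl
      rw [finrank_top, finrank_fin_fun] at h
      exact lt_irrefl _ h
    · intro h
      have := Submodule.finrank_lt h
      rwa [finrank_fin_fun] at this
  rw [← Finset.sum_fiberwise_of_maps_to (g := fun W : Submodule F (Fin k → F) => finrank F W)
    (t := Finset.range k) (fun W hW => (hlt W).2 (Finset.mem_filter.1 hW).2)]
  refine Finset.sum_congr rfl fun j hj => ?_
  rw [← Finset.sum_filter]
  refine Finset.sum_congr ?_ fun _ _ => rfl
  ext W
  simp only [Finset.mem_filter, mem_invSub, Finset.mem_univ, true_and]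
  exact ⟨fun h => ⟨h.2, h.1.1⟩, fun h => ⟨⟨h.2, (hlt W).1 (h.1 ▸ hj)⟩, h.1⟩⟩

/-- The group of units of `End` and the matrices. -/
noncomputable def glUnits (n : ℕ) : GL (Fin n) F ≃* (Module.End F (Fin n → F))ˣ :=
  Units.mapEquiv (Matrix.toLinAlgEquiv' : Matrix (Fin n) (Fin n) F ≃ₐ[F] _).toMulEquiv

omit [DecidableEq F] in
theorem sum_units_eq {n : ℕ} [Fintype (GL (Fin n) F)] (f : Module.End F (Fin n → F) → ℂ) :
    ∑ x ∈ units F (Fin n → F), f x = ∑ g : GL (Fin n) F, f (glEnd g) := by
  symm
  refine Finset.sum_bij (fun g _ => glEnd g) (fun g _ => mem_units.2 ?_)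
    (fun a _ b _ h => ?_) (fun x hx => ?_) (fun g _ => rfl)
  · exact ⟨glUnits n g, rfl⟩
  · exact (glUnits n).injective (Units.ext h)
  · obtain ⟨u, rfl⟩ := mem_units.1 hx
    refine ⟨(glUnits n).symm u, Finset.mem_univ _, ?_⟩
    show ((glUnits n ((glUnits n).symm u) : (Module.End F (Fin n → F))ˣ) : Module.End F (Fin n → F)) = _
    rw [MulEquiv.apply_symm_apply]

omit [DecidableEq F] in
theorem card_equiv_eq (n : ℕ) :
    Nat.card ((Fin n → F) ≃ₗ[F] (Fin n → F)) = Nat.card (GL (Fin n) F) :=
  (Nat.card_congr ((glUnits n).toEquiv.trans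
    (LinearMap.GeneralLinearGroup.generalLinearEquiv F (Fin n → F)).toEquiv)).symm

theorem conj_eq_pow {ω : ℂ} {N : ℕ} (hN : 0 < N) (h : ω ^ N = 1) : conj ω = ω ^ (N - 1) := by
  have h1 : ‖ω‖ = 1 := Complex.norm_eq_one_of_pow_eq_one h hN.ne'
  have h2 : conj ω * ω = 1 := by
    rw [mul_comm, Complex.mul_conj, Complex.normSq_eq_norm_sq, h1]
    simp
  have h0 : ω ≠ 0 := fun e => by rw [e, norm_zero] at h1; exact zero_ne_one h1
  refine mul_right_cancel₀ h0 ?_
  rw [h2, ← pow_succ, Nat.sub_add_cancel hN, h]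

theorem isPrimitiveRoot_div {R : Type*} [CommMonoid R] {z : R} {m N : ℕ} (hz : IsPrimitiveRoot z m)
    (hd : N ∣ m) (hm : 0 < m) : IsPrimitiveRoot (z ^ (m / N)) N :=
  hz.pow hm (Nat.div_mul_cancel hd).symm

omit [DecidableEq F] [CharP F p] in
open Classical in
/-- The inner product of two cuspidal functions of `GL n`. -/
theorem classInner_cusp {n : ℕ} [Fintype (GL (Fin n) F)] (hn : 0 < n)
    (hdvd : Fintype.card F ^ n - 1 ∣ S.m) (a b : ℕ) :
    classInner (fun g : GL (Fin n) F => cusp (theta S b) (glEnd g))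
        (fun g => cusp (theta S a) (glEnd g))
      = (((Finset.range n).filter fun i =>
          b * Fintype.card F ^ i ≡ a [MOD Fintype.card F ^ n - 1]).card : ℂ) := by
  haveI := S.isAlgClosed
  set q := Fintype.card F with hq
  have hq1 : 1 < q := Fintype.one_lt_card
  have hqn : 1 < q ^ n := Nat.one_lt_pow hn.ne' hq1
  set N := q ^ n - 1 with hN
  have hN0 : 0 < N := by omega
  set z : S.K := S.rootK ^ (S.m / N) with hz
  have hzP : IsPrimitiveRoot z N := isPrimitiveRoot_div (isPrimitiveRoot_rootK S) hdvd S.m_pos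
  set ω : ℂ := S.root ^ (S.m / N) with hω
  have hωP : IsPrimitiveRoot ω N := isPrimitiveRoot_div S.isPrimitiveRoot_root hdvd S.m_pos
  have hth : ∀ c j, theta S c (z ^ j) = ω ^ (c * j) := by
    intro c j
    rw [theta, hz, ← pow_mul, lift_rootK_pow, hω, ← pow_mul, ← pow_mul]
    congr 1
    ring
  have key := sum_units_cusp (F := F) (V := Fin n → F) (theta S a) (theta S b)
    (n := n) (finrank_fin_fun F) hn
  rw [sum_units_eq, card_equiv_eq, Nat.card_fun, Nat.card_fin, Nat.card_eq_fintype_card (α := F),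
    ← hq, ← hN] at key
  have hE : (nthRoots N (1 : S.K)).toFinset = (Finset.range N).image (fun j => z ^ j) := by
    ext x
    rw [Multiset.mem_toFinset, mem_nthRoots hN0, Finset.mem_image]
    constructor
    · intro hx
      haveI : NeZero N := ⟨hN0.ne'⟩
      obtain ⟨j, hj, rfl⟩ := hzP.eq_pow_of_pow_eq_one hx
      exact ⟨j, Finset.mem_range.2 hj, rfl⟩
    · rintro ⟨j, -, rfl⟩
      rw [← pow_mul, mul_comm, pow_mul, hzP.pow_eq_one, one_pow]
  rw [hE, Finset.sum_image (fun x hx y hy h => hzP.pow_inj (Finset.mem_range.1 hx)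
    (Finset.mem_range.1 hy) h)] at key
  have hgeom : ∀ i, ∑ j ∈ Finset.range N, conj (theta S a (z ^ j)) * theta S b ((z ^ j) ^ q ^ i)
      = if b * q ^ i ≡ a [MOD N] then (N : ℂ) else 0 := by
    intro i
    set e := (N - 1) * a + b * q ^ i with he
    have hj : ∀ j, conj (theta S a (z ^ j)) * theta S b ((z ^ j) ^ q ^ i) = (ω ^ e) ^ j := by
      intro j
      rw [← pow_mul z, hth, hth, map_pow, conj_eq_pow hN0 hωP.pow_eq_one, ← pow_mul ω, ← pow_add,
        ← pow_mul ω]
      congr 1
      rw [he]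
      ring
    rw [Finset.sum_congr rfl fun j _ => hj j]
    have hiff : b * q ^ i ≡ a [MOD N] ↔ N ∣ e := by
      rw [← Nat.modEq_zero_iff_dvd, he]
      have h0 : (N - 1) * a + a ≡ 0 [MOD N] := by
        rw [Nat.modEq_zero_iff_dvd]
        exact ⟨a, by nth_rw 2 [← Nat.sub_add_cancel hN0]; ring⟩
      constructor
      · exact fun h => (h.add_left _).trans h0
      · exact fun h => Nat.ModEq.add_left_cancel' _ (h.trans h0.symm)
    by_cases h : b * q ^ i ≡ a [MOD N]
    · rw [if_pos h]
      obtain ⟨c, hc⟩ := hiff.1 h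
      rw [hc, pow_mul, hωP.pow_eq_one, one_pow]
      simp
    · rw [if_neg h]
      have h1 : ω ^ e ≠ 1 := fun h' => h (hiff.2 (hωP.dvd_of_pow_eq_one e h'))
      rw [geom_sum_eq h1, ← pow_mul, mul_comm, pow_mul, hωP.pow_eq_one, one_pow, sub_self, zero_div]
  rw [Finset.sum_congr rfl fun j _ => Finset.mul_sum _ _ _, Finset.sum_comm,
    Finset.sum_congr rfl fun i _ => hgeom i, ← Finset.sum_filter, Finset.sum_const, nsmul_eq_mul,
    Nat.cast_pow] at key
  have hNc : (q : ℂ) ^ n - 1 = (N : ℂ) := by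
    rw [hN, Nat.cast_sub hqn.le, Nat.cast_pow, Nat.cast_one]
  rw [hNc] at key
  rw [classInner]
  have hN' : (N : ℂ) ≠ 0 := Nat.cast_ne_zero.2 hN0.ne'
  have hG : (Nat.card (GL (Fin n) F) : ℂ) ≠ 0 := Nat.cast_ne_zero.2 Nat.card_pos.ne'
  rw [inv_mul_eq_div, div_eq_iff hG]
  refine mul_left_cancel₀ hN' ?_
  rw [Finset.sum_congr rfl fun g _ => mul_comm (cusp (theta S b) (glEnd g)) _, key]
  ring

/-- The vectors supported on the first `m` coordinates. -/
def firstCoords (n m : ℕ) : Submodule F (Fin n → F) where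
  carrier := {v | ∀ i : Fin n, m ≤ i.val → v i = 0}
  zero_mem' := fun _ _ => rfl
  add_mem' := fun {v w} hv hw i hi => by simp [hv i hi, hw i hi]
  smul_mem' := fun c v hv i hi => by simp [hv i hi]

omit [CharP F p] in
open Classical in
/-- The cuspidal function has no fixed vector in the standard unipotent radicals. -/
theorem sum_radical {n m : ℕ} [Fintype (GL (Fin n) F)] (hm : 0 < m) (hmn : m < n) (a : ℕ) :
    (∑ g : GL (Fin n) F, if (∀ i j : Fin n, ¬ (i.val < m ∧ m ≤ j.val) →
        (g : Matrix (Fin n) (Fin n) F) i j = (1 : Matrix (Fin n) (Fin n) F) i j)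
      then cusp (theta S a) (glEnd g) else 0) = 0 := by
  set U := firstCoords (F := F) n m with hU
  have hU0 : U ≠ ⊥ := fun h => by
    have h1 : Pi.single (⟨0, by omega⟩ : Fin n) (1 : F) ∈ U := fun i hi => by
      rw [Pi.single_apply, if_neg]
      intro e
      rw [e] at hi
      simp at hi
      omega
    rw [h, Submodule.mem_bot, Pi.single_eq_zero_iff] at h1
    exact one_ne_zero h1
  have hU1 : U ≠ ⊤ := fun h => by
    have h1 : Pi.single (⟨m, hmn⟩ : Fin n) (1 : F) ∈ U := h ▸ Submodule.mem_top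
    have h2 := h1 ⟨m, hmn⟩ le_rfl
    rw [Pi.single_eq_same] at h2
    exact one_ne_zero h2
  have hinv : Inv (1 : Module.End F (Fin n → F)) U := fun x hx => hx
  have key := sum_cusp_dir (theta S a) _ rfl U 1 hinv hU0 hU1
  have hcond : ∀ g : GL (Fin n) F, (∀ i j : Fin n, ¬ (i.val < m ∧ m ≤ j.val) →
      (g : Matrix (Fin n) (Fin n) F) i j = (1 : Matrix (Fin n) (Fin n) F) i j) ↔
        glEnd g - 1 ∈ unipDir U := by
    intro g
    have he : ∀ v : Fin n → F, ∀ i, (glEnd g - 1) v i =
        ∑ j, ((g : Matrix (Fin n) (Fin n) F) i j - (1 : Matrix (Fin n) (Fin n) F) i j) * v j := by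
      intro v i
      rw [LinearMap.sub_apply, glEnd_apply, Matrix.toLin'_apply, Module.End.one_apply, Pi.sub_apply,
        ← Matrix.one_mulVec (v := v)]
      simp only [Matrix.mulVec, dotProduct, sub_mul, Finset.sum_sub_distrib]
      simp [Matrix.one_apply]
    constructor
    · intro h
      refine ⟨fun v hv => funext fun i => ?_, fun v i hi => ?_⟩
      · rw [he]
        refine Finset.sum_eq_zero fun j _ => ?_
        rcases Nat.lt_or_ge j.val m with hj | hj
        · rw [h i j (by omega), sub_self, zero_mul]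
        · rw [hv j hj, mul_zero]
      · rw [he]
        refine Finset.sum_eq_zero fun j _ => ?_
        rw [h i j (by omega), sub_self, zero_mul]
    · rintro ⟨h1, h2⟩ i j hij
      rw [← sub_eq_zero]
      have hv : (glEnd g - 1) (Pi.single j 1) i
          = (g : Matrix (Fin n) (Fin n) F) i j - (1 : Matrix (Fin n) (Fin n) F) i j := by
        rw [he]
        simp [Pi.single_apply]
      rw [← hv]
      rcases Nat.lt_or_ge i.val m with hi | hi
      · rw [h1 (Pi.single j 1) (fun k hk => by
          rw [Pi.single_apply, if_neg]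
          intro e
          rw [e] at hk
          omega)]
        rfl
      · exact h2 _ i hi
  rw [← Finset.sum_filter, ← key]
  refine Finset.sum_bij (fun g _ => glEnd g - 1)
    (fun g hg => mem_dirSet.2 ((hcond g).1 (Finset.mem_filter.1 hg).2))
    (fun g _ g' _ h => (glUnits n).injective (Units.ext (sub_left_injective h)))
    (fun h hh => ?_) (fun g _ => by rw [add_sub_cancel])
  have hh' := mem_dirSet.1 hh
  obtain ⟨u, hu⟩ := isUnit_add_dir hinv hh' isUnit_one
  have hu' : glEnd ((glUnits n).symm u) = 1 + h := by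
    rw [← hu]
    show ((glUnits n ((glUnits n).symm u) : (Module.End F (Fin n → F))ˣ) : Module.End F (Fin n → F)) = _
    rw [MulEquiv.apply_symm_apply]
  refine ⟨(glUnits n).symm u, Finset.mem_filter.2 ⟨Finset.mem_univ _, (hcond _).2 ?_⟩, ?_⟩
  · rw [hu', add_sub_cancel_left]
    exact hh'
  · rw [hu', add_sub_cancel_left]

omit [DecidableEq F] in
open Classical in
/-- The signed cuspidal function of a primitive exponent is irreducible of the expected degree. -/
theorem isIrrCharacter_cusp {n : ℕ} [Fintype (GL (Fin n) F)] (hn : 0 < n)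
    (hfit : ∀ k ≤ n, S.Fits (GL (Fin k) F)) (hdvd : Fintype.card F ^ n - 1 ∣ S.m)
    {a : ℕ} (ha : a.Coprime S.m) :
    IsIrrCharacter (GL (Fin n) F) ((-1 : ℂ) ^ (n - 1) • fun g => cusp (theta S a) (glEnd g)) ∧
      ((-1 : ℂ) ^ (n - 1) • fun g : GL (Fin n) F => cusp (theta S a) (glEnd g)) 1
        = ∏ i ∈ Finset.Ico 1 n, ((Fintype.card F : ℂ) ^ i - 1) := by
  set q := Fintype.card F with hq
  have hq1 : 1 < q := Fintype.one_lt_card
  have hdeg : ((-1 : ℂ) ^ (n - 1) • fun g : GL (Fin n) F => cusp (theta S a) (glEnd g)) 1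
      = ∏ i ∈ Finset.Ico 1 n, ((q : ℂ) ^ i - 1) := by
    rw [Pi.smul_apply, smul_eq_mul, map_one, cusp_one (theta S a) n (finrank_fin_fun F), theta_one,
      one_mul, cuspDeg, if_neg hn.ne', Nat.card_eq_fintype_card, ← hq]
    have : ∀ i, ((q : ℂ) ^ i - 1) = (-1) * (1 - (q : ℂ) ^ i) := fun i => by ring
    rw [Finset.prod_congr rfl fun i _ => this i, Finset.prod_mul_distrib, Finset.prod_const,
      Nat.card_Ico]
  refine ⟨?_, hdeg⟩
  refine CfsgLib.CharTheory.isIrrCharacter_of_norm_one
    (CfsgLib.Coherence.isGeneralizedCharacter_neg_one_pow_smul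
      (isGeneralizedCharacter_cusp S n hfit ha n le_rfl) _) ?_ ?_
  · rw [CfsgLib.CharTheory.classInner_smul_left, CfsgLib.CharTheory.classInner_smul_right,
      classInner_cusp S hn hdvd a a, map_pow, map_neg, map_one, ← mul_assoc, ← pow_add,
      ← two_mul, pow_mul, neg_one_sq, one_pow, one_mul]
    have hset : ((Finset.range n).filter fun i => a * q ^ i ≡ a [MOD q ^ n - 1]) = {0} := by
      ext i
      rw [Finset.mem_filter, Finset.mem_range, Finset.mem_singleton]
      constructor
      · rintro ⟨hi, h⟩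
        by_contra h0
        have hcop : a.Coprime (q ^ n - 1) := ha.coprime_dvd_right hdvd
        have h1 : q ^ i ≡ 1 [MOD q ^ n - 1] := by
          refine Nat.ModEq.cancel_left_of_coprime (c := a) hcop.symm ?_
          rw [mul_one]
          exact h
        have hlt : q ^ i < q ^ n := Nat.pow_lt_pow_right hq1 hi
        have hgt : 1 < q ^ i := Nat.one_lt_pow h0 hq1
        have h2 := (Nat.modEq_iff_dvd' hgt.le).1 h1.symm
        have := Nat.le_of_dvd (by omega) h2
        omega
      · rintro rfl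
        exact ⟨hn, by rw [pow_zero, mul_one]⟩
    rw [← hq, hset]
    simp
  · rw [hdeg]
    have h : (∏ i ∈ Finset.Ico 1 n, ((q : ℂ) ^ i - 1))
        = ((∏ i ∈ Finset.Ico 1 n, ((q : ℝ) ^ i - 1) : ℝ) : ℂ) := by push_cast; rfl
    rw [h, Complex.ofReal_re]
    refine Finset.prod_pos fun i hi => sub_pos.2 (one_lt_pow₀ (by exact_mod_cast hq1) ?_)
    have := (Finset.mem_Ico.1 hi).1
    omega

end CfsgLib.GLCuspidal
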