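import Cfsg.Agent.Lib.GLCuspidal.Primary

/-!
# Inner products of the cuspidal functions over the invertible endomorphisms
-/

set_option autoImplicit false
set_option linter.unusedSectionVars false
set_option linter.style.haveILetI false

namespace CfsgLib.GLCuspidal

open Polynomial Module
open scoped ComplexConjugate

variable {F : Type*} [Field F] [Finite F] {K : Type*} [Field K] [Algebra F K] (θ : K → ℂ)
variable {V : Type*} [AddCommGroup V] [Module F V] [FiniteDimensional F V]

open Classical in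
/-- The invertible endomorphisms. -/
noncomputable def units (F V : Type*) [Field F] [Finite F] [AddCommGroup V] [Module F V]
    [FiniteDimensional F V] : Finset (Module.End F V) :=
  (allEnd F V).filter fun f => IsUnit f

theorem mem_units {f : Module.End F V} : f ∈ units F V ↔ IsUnit f := by simp [units, mem_allEnd]

theorem det_add_dir {U : Submodule F V} {f h : Module.End F V} (hf : Inv f U)
    (hh : h ∈ unipDir U) : LinearMap.det (f + h) = LinearMap.det f := by
  rw [LinearMap.det_eq_det_mul_det U f hf, LinearMap.det_eq_det_mul_det U (f + h) (inv_add_dir hf hh),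
    restrict_add_dir hf hh, mapQ_add_dir hf hh]

theorem isUnit_add_dir {U : Submodule F V} {f h : Module.End F V} (hf : Inv f U)
    (hh : h ∈ unipDir U) (hu : IsUnit f) : IsUnit (f + h) := by
  rw [LinearMap.isUnit_iff_isUnit_det] at hu ⊢
  rwa [det_add_dir hf hh]

open Classical in
/-- The inner product with a cuspidal function is the one with the lifted sum. -/
theorem sum_units_mul (θ₁ θ₂ : K → ℂ) :
    ∑ f ∈ units F V, conj (cusp θ₁ f) * cusp θ₂ f
      = ∑ f ∈ units F V, conj (cusp θ₁ f) * liftSum θ₂ f := by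
  haveI := finite_submodule F V
  letI : Fintype (Submodule F V) := Fintype.ofFinite _
  rw [Finset.sum_congr rfl fun f _ => by
    rw [cusp_eq θ₂ f, mul_sub, Finset.mul_sum], Finset.sum_sub_distrib, sub_eq_self]
  have e : ∀ f : Module.End F V,
      ∑ W ∈ (invSub f).filter (· ≠ ⊤), conj (cusp θ₁ f) * cusp θ₂ (rst f W)
        = ∑ W : Submodule F V, if Inv f W ∧ W ≠ ⊤ then conj (cusp θ₁ f) * cusp θ₂ (rst f W) else 0 := by
    intro f
    rw [← Finset.sum_filter]
    refine Finset.sum_congr ?_ fun _ _ => rfl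
    ext W
    simp [mem_invSub]
  rw [Finset.sum_congr rfl fun f _ => e f, Finset.sum_comm]
  refine Finset.sum_eq_zero fun W _ => ?_
  rw [← Finset.sum_filter]
  rcases eq_or_ne W ⊤ with rfl | hW1
  · rw [Finset.filter_false_of_mem (fun f _ h => h.2 rfl), Finset.sum_empty]
  rcases eq_or_ne W ⊥ with rfl | hW0
  · exact Finset.sum_eq_zero fun f _ => by rw [cusp_rst_bot, mul_zero]
  have key := sum_eq_zero_of_translate θ₁ hW0 hW1
    ((units F V).filter fun f => Inv f W ∧ W ≠ ⊤) (fun f hf => (Finset.mem_filter.1 hf).2.1)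
    (fun f hf h hh => by
      obtain ⟨hu, hi, ht⟩ := Finset.mem_filter.1 hf
      exact Finset.mem_filter.2 ⟨mem_units.2 (isUnit_add_dir hi (mem_dirSet.1 hh) (mem_units.1 hu)),
        inv_add_dir hi (mem_dirSet.1 hh), ht⟩)
    (fun f => conj (cusp θ₂ (rst f W))) (fun f hf h hh => by
      obtain ⟨-, hi, -⟩ := Finset.mem_filter.1 hf
      have hh' := mem_dirSet.1 hh
      rw [rst_of_inv hi, rst_of_inv (inv_add_dir hi hh'), restrict_add_dir hi hh'])
  have := congrArg conj key
  rw [map_zero, map_sum] at this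
  rw [← this]
  refine Finset.sum_congr rfl fun f _ => ?_
  rw [map_mul, Complex.conj_conj, mul_comm]

variable [IsAlgClosed K]

theorem pow_card_eq_self_iff {x : K} :
    x ^ Nat.card F = x ↔ ∃ c : F, algebraMap F K c = x := by
  letI : Fintype F := Fintype.ofFinite F
  rw [Nat.card_eq_fintype_card]
  refine ⟨CharDegrees.eq_algebraMap_of_pow_card_eq, ?_⟩
  rintro ⟨c, rfl⟩
  rw [← map_pow, FiniteField.pow_card]

/-- The minimal polynomial of a root of unity of order dividing `q ^ n - 1`. -/
theorem exists_minpoly_pow {n : ℕ} {x : K} (hn : x ^ Nat.card F ^ n = x) (hpos : 0 < n) :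
    Irreducible (minpoly F x) ∧ (minpoly F x).Monic ∧
      ∃ l : ℕ, l * (minpoly F x).natDegree = n ∧ ∀ θ : K → ℂ,
        ∑ i ∈ Finset.range n, θ (x ^ Nat.card F ^ i) = rootSum θ ((minpoly F x) ^ l) := by
  classical
  letI : Fintype F := Fintype.ofFinite F
  set q := Nat.card F with hqd
  have hq : q = Fintype.card F := Nat.card_eq_fintype_card
  obtain ⟨p, hcp⟩ := CharP.exists F
  obtain ⟨a, hp, ha⟩ := FiniteField.card F p
  haveI := Fact.mk hp
  haveI : CharP K p := charP_of_injective_algebraMap (algebraMap F K).injective p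
  let φ : K →+* K := iterateFrobenius K p (a : ℕ)
  have hφ : ∀ y, φ y = y ^ q := fun y => by
    show y ^ p ^ (a : ℕ) = y ^ q
    rw [hq, ha]
  set Q : K[X] := ∏ i ∈ Finset.range n, (X - C (x ^ q ^ i)) with hQ
  have hQm : Q.Monic := monic_prod_of_monic _ _ fun i _ => monic_X_sub_C _
  have hQφ : Q.map φ = Q := by
    rw [hQ, Polynomial.map_prod]
    simp only [Polynomial.map_sub, map_X, map_C, hφ, ← pow_mul, ← pow_succ]
    obtain ⟨m, rfl⟩ := Nat.exists_eq_succ_of_ne_zero hpos.ne'
    rw [Finset.prod_range_succ, Finset.prod_range_succ' (fun i => X - C (x ^ q ^ i)), hn, pow_zero,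
      pow_one]
  have hlift : Q ∈ Polynomial.lifts (algebraMap F K) := by
    rw [Polynomial.lifts_iff_coeff_lifts]
    intro i
    have h := congrArg (fun g : K[X] => g.coeff i) hQφ
    rw [coeff_map, hφ] at h
    obtain ⟨c, hc⟩ := pow_card_eq_self_iff.1 h
    exact ⟨c, hc⟩
  obtain ⟨g, hg, hgd, hgm⟩ := Polynomial.lifts_and_degree_eq_and_monic hlift hQm
  have hint : IsIntegral F x := by
    refine ⟨g, hgm, ?_⟩
    rw [eval₂_eq_eval_map, hg, hQ, eval_prod]
    refine Finset.prod_eq_zero (Finset.mem_range.2 hpos) ?_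
    simp
  have hirr := minpoly.irreducible hint
  have hmon := minpoly.monic hint
  obtain ⟨l, hl⟩ := eq_pow_of_factors hirr hmon hgm (fun r hr hrm hrd => by
    have hd : (r.map (algebraMap F K)).degree ≠ 0 := by
      rw [degree_map, degree_eq_natDegree hr.ne_zero]
      exact_mod_cast hr.natDegree_pos.ne'
    obtain ⟨μ, hμ⟩ := IsAlgClosed.exists_root _ hd
    have hμQ : Q.IsRoot μ := by
      obtain ⟨s, hs⟩ := hrd
      rw [← hg, hs, Polynomial.map_mul]
      exact root_mul_right_of_isRoot _ hμ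
    rw [hQ, IsRoot, eval_prod, Finset.prod_eq_zero_iff] at hμQ
    obtain ⟨i, -, hi⟩ := hμQ
    have hμe : μ = x ^ q ^ i := by simpa [sub_eq_zero] using hi
    have h0 : aeval (x ^ q ^ i) (minpoly F x) = 0 := by
      clear hi hμe
      induction i with
      | zero => simp [minpoly.aeval]
      | succ i ih =>
        have h := congrArg φ ih
        rw [map_zero, Polynomial.aeval_def, Polynomial.hom_eval₂] at h
        rw [pow_succ, pow_mul, ← hφ, Polynomial.aeval_def]
        have e : φ.comp (algebraMap F K) = algebraMap F K := RingHom.ext fun c => by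
          rw [RingHom.comp_apply, hφ]
          exact pow_card_eq_self_iff.2 ⟨c, rfl⟩
        rwa [e] at h
    have hr' : r = minpoly F μ := minpoly.eq_of_irreducible_of_monic hr
      (by rw [aeval_def, eval₂_eq_eval_map]; exact hμ) hrm
    rw [hr']
    exact (minpoly.eq_of_irreducible_of_monic hirr (hμe ▸ h0) hmon).symm)
  refine ⟨hirr, hmon, l, ?_, fun θ => ?_⟩
  · have h1 : g.natDegree = n := by
      have e := natDegree_map_eq_of_injective (algebraMap F K).injective g
      rw [hg, hQ, natDegree_prod _ _ (fun i _ => X_sub_C_ne_zero _)] at e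
      rw [← e]
      simp only [natDegree_X_sub_C, Finset.sum_const, Finset.card_range, smul_eq_mul, mul_one]
    rw [← h1, hl, natDegree_pow]
  · have e : (Finset.range n).val.map (fun i => X - C (x ^ q ^ i))
        = ((Finset.range n).val.map (fun i => x ^ q ^ i)).map (fun y => X - C y) :=
      (Multiset.map_map (fun y => X - C y) (fun i => x ^ q ^ i) (Finset.range n).val).symm
    rw [rootSum, ← hl, hg, hQ, Finset.prod_eq_multiset_prod, e, roots_multiset_prod_X_sub_C,
      Multiset.map_map]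
    rfl

theorem ne_zero_of_pow_eq_one {x : K} {N : ℕ} (hN : 0 < N) (h : x ^ N = 1) : x ≠ 0 := fun h0 => by
  rw [h0, zero_pow hN.ne'] at h
  exact zero_ne_one h

open Classical in
/-- The inner product of two cuspidal functions. -/
theorem sum_units_cusp (θ₁ θ₂ : K → ℂ) {n : ℕ} (hn : finrank F V = n) (hpos : 0 < n) :
    ((Nat.card V : ℂ) - 1) * ∑ f ∈ units F V, conj (cusp θ₁ f) * cusp θ₂ f
      = (Nat.card (V ≃ₗ[F] V) : ℂ) * ∑ x ∈ (nthRoots (Nat.card F ^ n - 1) (1 : K)).toFinset,
          conj (θ₁ x) * ∑ i ∈ Finset.range n, θ₂ (x ^ Nat.card F ^ i) := by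
  letI : Fintype F := Fintype.ofFinite F
  set q := Nat.card F with hqd
  have hq1 : 1 < q := by rw [hqd, Nat.card_eq_fintype_card]; exact Fintype.one_lt_card
  have hqn : 1 < q ^ n := Nat.one_lt_pow hpos.ne' hq1
  set N := q ^ n - 1 with hN
  have hN0 : 0 < N := by omega
  set E := (nthRoots N (1 : K)).toFinset with hE
  have hmemE : ∀ {x : K}, x ∈ E ↔ x ^ N = 1 := fun {x} => by
    rw [hE, Multiset.mem_toFinset, mem_nthRoots hN0]
  have hfix : ∀ {x : K}, x ∈ E → x ^ q ^ n = x := fun {x} hx => by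
    rw [show q ^ n = N + 1 by omega, pow_succ, hmemE.1 hx, one_mul]
  set Pn := E.image (minpoly F) with hPn
  have hPnX : ∀ p ∈ Pn, Irreducible p ∧ p.Monic ∧ p ≠ X := by
    intro p hp
    obtain ⟨x, hx, rfl⟩ := Finset.mem_image.1 hp
    obtain ⟨hirr, hmon, -⟩ := exists_minpoly_pow (hfix hx) hpos
    refine ⟨hirr, hmon, fun h => ?_⟩
    have := minpoly.aeval F x
    rw [h, aeval_X] at this
    exact ne_zero_of_pow_eq_one hN0 (hmemE.1 hx) this
  have hroots : ∀ p ∈ Pn, ∀ x : K, x ∈ E ∧ minpoly F x = p ↔ x ∈ (p.map (algebraMap F K)).roots := by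
    intro p hp x
    obtain ⟨y, hy, rfl⟩ := Finset.mem_image.1 hp
    obtain ⟨hirr, hmon, -⟩ := exists_minpoly_pow (hfix hy) hpos
    constructor
    · rintro ⟨-, h⟩
      rw [mem_roots ((hmon.map _).ne_zero), IsRoot, ← eval₂_eq_eval_map, ← aeval_def, ← h]
      exact minpoly.aeval F x
    · intro h
      rw [mem_roots ((hmon.map _).ne_zero), IsRoot, ← eval₂_eq_eval_map, ← aeval_def] at h
      have e := (minpoly.eq_of_irreducible_of_monic hirr h hmon).symm
      refine ⟨hmemE.2 ?_, e⟩
      have hd : minpoly F y ∣ (X ^ N - 1 : F[X]) := minpoly.dvd F y (by simp [hmemE.1 hy])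
      obtain ⟨s, hs⟩ := hd
      have h2 := congrArg (aeval x) hs
      rw [map_mul, h, zero_mul, map_sub, map_pow, aeval_X, map_one, sub_eq_zero] at h2
      exact h2
  -- only the primary endomorphisms contribute
  have hdisj : ∀ p ∈ Pn, ∀ p' ∈ Pn, ∀ f : Module.End F V, Prim p f → Prim p' f → p = p' := by
    intro p hp p' hp' f h h'
    obtain ⟨j, hj, hj'⟩ := charpoly_eq_pow (hPnX p hp).1 (hPnX p hp).2.1 h
    obtain ⟨j', hjj, hjj'⟩ := charpoly_eq_pow (hPnX p' hp').1 (hPnX p' hp').2.1 h'
    have hj0 : j ≠ 0 := fun h0 => by rw [h0, zero_mul] at hj'; omega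
    have : p ∣ p' := (hPnX p hp).1.prime.dvd_of_dvd_pow
      (show p ∣ p' ^ j' from hjj ▸ hj ▸ dvd_pow_self p hj0)
    exact eq_of_monic_of_associated (hPnX p hp).2.1 (hPnX p' hp').2.1
      ((hPnX p hp).1.associated_of_dvd (hPnX p' hp').1 this)
  have hunit : ∀ p ∈ Pn, ∀ f : Module.End F V, Prim p f → IsUnit f := by
    intro p hp f hf
    obtain ⟨M, hM⟩ := hf
    obtain ⟨hirr, hmon, hX⟩ := hPnX p hp
    have hnd : ¬ (X : F[X]) ∣ p := fun h => hX
      (eq_of_monic_of_associated hmon monic_X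
        (irreducible_X.associated_of_dvd hirr h).symm)
    obtain ⟨a, b, hab⟩ := ((irreducible_X.coprime_iff_not_dvd).2 hnd).pow_right (n := M)
    have h := congrArg (aeval f) hab
    rw [map_add, map_mul, map_mul, aeval_X, hM, mul_zero, add_zero, map_one] at h
    exact ⟨⟨f, aeval f a, by
      rw [← h]
      have := ((Commute.all (X : F[X]) a).map (aeval f)).eq
      rwa [aeval_X] at this, h⟩, rfl⟩
  have hcover : ∀ f ∈ units F V, cusp θ₁ f ≠ 0 → ∃ p ∈ Pn, Prim p f := by
    intro f hf hne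
    rcases idem_or_prim f (hn ▸ hpos) with ⟨P, h1, h2, h3⟩ | ⟨p, hirr, hmon, hprim⟩
    · exact absurd (cusp_eq_zero_of_idem θ₁ _ rfl f P h1 h2 h3) hne
    refine ⟨p, ?_, hprim⟩
    obtain ⟨l, -, hl⟩ := charpoly_eq_pow hirr hmon hprim
    have hpX : p ≠ X := fun h => by
      obtain ⟨M, hM⟩ := hprim
      rw [h, map_pow, aeval_X] at hM
      have := (mem_units.1 hf).pow M
      rw [hM] at this
      haveI hnt : Nontrivial V := Module.nontrivial_of_finrank_pos (R := F) (hn ▸ hpos)
      exact not_isUnit_zero this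
    obtain ⟨x, hx⟩ := IsAlgClosed.exists_root (p.map (algebraMap F K)) (by
      rw [degree_map, degree_eq_natDegree hirr.ne_zero]
      exact_mod_cast hirr.natDegree_pos.ne')
    rw [IsRoot, ← eval₂_eq_eval_map, ← aeval_def] at hx
    have hxp := (minpoly.eq_of_irreducible_of_monic hirr hx hmon).symm
    have hdvd : p ∣ X ^ (Nat.card F) ^ n - X :=
      hirr.natDegree_dvd_iff_dvd_X_pow_card_pow_sub_X.1 (hn ▸ ⟨l, by rw [← hl, mul_comm]⟩)
    have hxn : x ^ q ^ n = x := by
      obtain ⟨s, hs⟩ := hdvd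
      have h2 := congrArg (aeval x) hs
      rw [map_mul, hx, zero_mul, map_sub, map_pow, aeval_X, sub_eq_zero] at h2
      exact h2
    have hx0 : x ≠ 0 := fun h => hpX (by
      rw [← hxp, h, minpoly.zero])
    have hxE : x ∈ E := hmemE.2 (mul_right_cancel₀ hx0 (by
      rw [← pow_succ, show N + 1 = q ^ n by omega, hxn, one_mul]))
    exact hxp ▸ Finset.mem_image_of_mem _ hxE
  rw [sum_units_mul θ₁ θ₂]
  have hsplit : ∑ f ∈ units F V, conj (cusp θ₁ f) * liftSum θ₂ f
      = ∑ p ∈ Pn, ∑ f ∈ (allEnd F V).filter (Prim p), conj (cusp θ₁ f) * liftSum θ₂ f := by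
    rw [← Finset.sum_biUnion]
    · symm
      refine Finset.sum_subset (fun f hf => ?_) (fun f hf hnot => ?_)
      · obtain ⟨p, hp, hfp⟩ := Finset.mem_biUnion.1 hf
        exact mem_units.2 (hunit p hp f (Finset.mem_filter.1 hfp).2)
      · have : cusp θ₁ f = 0 := by
          by_contra h
          obtain ⟨p, hp, hfp⟩ := hcover f hf h
          exact hnot (Finset.mem_biUnion.2 ⟨p, hp, Finset.mem_filter.2 ⟨mem_allEnd _, hfp⟩⟩)
        rw [this, map_zero, zero_mul]
    · intro p hp p' hp' hne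
      rw [Function.onFun, Finset.disjoint_left]
      intro f hf hf'
      exact hne (hdisj p hp p' hp' f (Finset.mem_filter.1 hf).2 (Finset.mem_filter.1 hf').2)
  rw [hsplit, Finset.mul_sum, Finset.mul_sum,
    ← Finset.sum_fiberwise_of_maps_to (s := E) (t := Pn) (g := minpoly F)
      (fun x hx => Finset.mem_image_of_mem (minpoly F) hx)]
  refine Finset.sum_congr rfl fun p hp => ?_
  obtain ⟨hirr, hmon, -⟩ := hPnX p hp
  obtain ⟨y, hy, hyp⟩ := Finset.mem_image.1 hp
  obtain ⟨-, -, l, hl, -⟩ := exists_minpoly_pow (hfix hy) hpos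
  rw [hyp, ← hn] at hl
  have hconst : ∀ f ∈ (allEnd F V).filter (Prim p), liftSum θ₂ f = l * rootSum θ₂ p := by
    intro f hf
    obtain ⟨j, hj, hj'⟩ := liftSum_prim θ₂ hirr hmon (Finset.mem_filter.1 hf).2
    rw [hj', Nat.eq_of_mul_eq_mul_right hirr.natDegree_pos (hj.trans hl.symm)]
  rw [Finset.sum_congr rfl fun f hf => by rw [hconst f hf], ← Finset.sum_mul, ← mul_assoc]
  have hT := congrArg conj (sum_prim θ₁ hirr hmon hl (hn ▸ hpos))
  rw [map_mul, map_mul, map_sum, map_sub, map_one, Complex.conj_natCast, Complex.conj_natCast] at hT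
  rw [hT]
  have hfib : ∀ x ∈ E.filter (fun x => minpoly F x = p),
      ∑ i ∈ Finset.range n, θ₂ (x ^ q ^ i) = l * rootSum θ₂ p := by
    intro x hx
    obtain ⟨hxE, hxp⟩ := Finset.mem_filter.1 hx
    obtain ⟨-, -, l', hl', hs⟩ := exists_minpoly_pow (hfix hxE) hpos
    rw [hxp] at hl' hs
    rw [hs θ₂, rootSum_pow θ₂ hirr.ne_zero, Nat.eq_of_mul_eq_mul_right hirr.natDegree_pos
      (hl'.trans ((hl.trans hn).symm))]
  rw [← Finset.mul_sum, Finset.sum_congr rfl fun x hx => by rw [hfib x hx], ← Finset.sum_mul,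
    ← map_sum]
  have hfs : E.filter (fun x => minpoly F x = p) = (p.map (algebraMap F K)).roots.toFinset := by
    ext x
    rw [Finset.mem_filter]
    exact (hroots p hp x).trans Multiset.mem_toFinset.symm
  have hnodup : (p.map (algebraMap F K)).roots.Nodup :=
    nodup_roots ((PerfectField.separable_of_irreducible hirr).map)
  rw [hfs, show ∑ x ∈ (p.map (algebraMap F K)).roots.toFinset, θ₁ x = rootSum θ₁ p from by
    rw [rootSum, Finset.sum_eq_multiset_sum, Multiset.toFinset_val, hnodup.dedup]]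
  ring

end CfsgLib.GLCuspidal
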