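import Cfsg.Agent.Lib.GLCuspidal.Cusp
import Cfsg.Agent.Lib.CharDegrees.PSLOrders
import Cfsg.Agent.Lib.CharDegrees.Thompson.Cyclic

/-!
# The cuspidal function vanishes off the primary endomorphisms, and its sum over those with a
given primary divisor
-/

set_option autoImplicit false
set_option linter.unusedSectionVars false
set_option linter.style.haveILetI false

namespace CfsgLib.GLCuspidal

open Polynomial Module

variable {F : Type*} [Field F] [Finite F] {K : Type*} [Field K] [Algebra F K] (θ : K → ℂ)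
variable {V : Type*} [AddCommGroup V] [Module F V] [FiniteDimensional F V]

theorem inv_aeval {f : Module.End F V} {W : Submodule F V} (h : Inv f W) (P : F[X]) :
    ∀ x ∈ W, aeval f P x ∈ W := by
  induction P using Polynomial.induction_on' with
  | add a b ha hb => intro x hx; rw [map_add, LinearMap.add_apply]; exact W.add_mem (ha x hx) (hb x hx)
  | monomial k c =>
    intro x hx
    rw [aeval_monomial, Module.End.mul_apply, Module.algebraMap_end_apply]
    refine W.smul_mem c ?_
    induction k with
    | zero => simpa using hx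
    | succ k ih => rw [pow_succ', Module.End.mul_apply]; exact h ih

theorem aeval_rst {f : Module.End F V} {W : Submodule F V} (h : Inv f W) (P : F[X]) (x : W) :
    (aeval (rst f W) P x : V) = aeval f P x := by
  induction P using Polynomial.induction_on' with
  | add a b ha hb => simp [map_add, ha, hb]
  | monomial k c =>
    rw [aeval_monomial, aeval_monomial, Module.End.mul_apply, Module.End.mul_apply,
      Module.algebraMap_end_apply, Module.algebraMap_end_apply, Submodule.coe_smul]
    congr 1
    induction k with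
    | zero => rfl
    | succ k ih => rw [pow_succ', pow_succ', Module.End.mul_apply, Module.End.mul_apply, rst_apply h, ih]

open Classical in
/-- An idempotent polynomial in `f` other than `0`, `1` kills the cuspidal function. -/
theorem cusp_eq_zero_of_idem : ∀ (n : ℕ) {V : Type*} [AddCommGroup V] [Module F V]
    [FiniteDimensional F V], finrank F V = n → ∀ (f : Module.End F V) (P : F[X]),
      IsIdempotentElem (aeval f P) → aeval f P ≠ 0 → aeval f P ≠ 1 → cusp θ f = 0 := by
  intro n
  induction n using Nat.strong_induction_on with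
  | _ n ih =>
  intro V _ _ _ hn f P hP h0 h1
  set e := aeval f P with he
  set A := LinearMap.range e with hA
  set B := LinearMap.ker e with hB
  have hee : ∀ x, e (e x) = e x := fun x => LinearMap.congr_fun hP x
  have hcomm : ∀ x, f (e x) = e (f x) := fun x => by
    have h := ((Commute.all (X : F[X]) P).map (aeval f)).eq
    rw [aeval_X] at h
    exact LinearMap.congr_fun h x
  have hAB : IsCompl A B := by
    constructor
    · rw [Submodule.disjoint_def]
      rintro _ ⟨x, rfl⟩ hx
      rwa [← hee, ← LinearMap.mem_ker]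
    · rw [codisjoint_iff, eq_top_iff]
      intro x _
      refine Submodule.mem_sup.2 ⟨e x, ⟨x, rfl⟩, x - e x, ?_, add_sub_cancel _ _⟩
      rw [hB, LinearMap.mem_ker, map_sub, hee, sub_self]
  have hiA : Inv f A := by
    rintro _ ⟨x, rfl⟩
    exact ⟨f x, (hcomm x).symm⟩
  have hiB : Inv f B := fun x hx => by
    rw [hB, LinearMap.mem_ker] at hx
    rw [Submodule.mem_comap, hB, LinearMap.mem_ker, ← hcomm, hx, map_zero]
  have hAtop : A ≠ ⊤ := fun h => h1 (LinearMap.ext fun x => by
    obtain ⟨y, rfl⟩ : x ∈ A := h ▸ Submodule.mem_top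
    exact hee y)
  have hBtop : B ≠ ⊤ := fun h => h0 (LinearMap.ext fun x => by
    exact LinearMap.mem_ker.1 (h ▸ Submodule.mem_top : x ∈ B))
  -- the lifted sum is additive
  have hL : liftSum θ f = ∑ W ∈ (invSub f).filter (· ≤ A), cusp θ (rst f W)
      + ∑ W ∈ (invSub f).filter (· ≤ B), cusp θ (rst f W) := by
    rw [sum_le_eq_liftSum θ hiA, sum_le_eq_liftSum θ hiB, liftSum_split θ f A hiA]
    congr 1
    let q := Submodule.quotientEquivOfIsCompl A B hAB
    rw [← liftSum_conj θ q.symm (f.restrict hiB : Module.End F B)]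
    congr 1
    refine LinearMap.ext fun z => ?_
    obtain ⟨y, rfl⟩ := q.symm.surjective z
    simp only [LinearEquiv.conjAlgEquiv_apply, LinearMap.coe_comp, Function.comp_apply,
      LinearEquiv.coe_coe, LinearEquiv.symm_symm, q,
      Submodule.quotientEquivOfIsCompl_symm_apply,
      Submodule.quotientEquivOfIsCompl_apply_mk_right]
    rfl
  have hother : ∀ W ∈ invSub f, ¬ W ≤ A → ¬ W ≤ B → W ≠ ⊤ → cusp θ (rst f W) = 0 := by
    intro W hW hWA hWB hWt
    have hW := mem_invSub.1 hW
    refine ih _ (hn ▸ Submodule.finrank_lt hWt) rfl (rst f W) P ?_ ?_ ?_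
    · refine LinearMap.ext fun x => Subtype.ext ?_
      rw [Module.End.mul_apply, aeval_rst hW, aeval_rst hW]
      exact hee x.1
    · intro h
      refine hWB fun x hx => LinearMap.mem_ker.2 ?_
      have := congrArg Subtype.val (LinearMap.congr_fun h (⟨x, hx⟩ : W))
      rw [aeval_rst hW] at this
      simpa using this
    · intro h
      refine hWA fun x hx => ⟨x, ?_⟩
      have := congrArg Subtype.val (LinearMap.congr_fun h (⟨x, hx⟩ : W))
      rw [aeval_rst hW] at this
      simpa using this
  have key : ∀ W ∈ invSub f, cusp θ (rst f W) = (if W ≤ A then cusp θ (rst f W) else 0)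
      + (if W ≤ B then cusp θ (rst f W) else 0) + (if W = ⊤ then cusp θ (rst f W) else 0) := by
    intro W hW
    by_cases hWt : W = ⊤
    · subst hWt
      rw [if_neg (fun h => hAtop (top_le_iff.1 h)), if_neg (fun h => hBtop (top_le_iff.1 h)),
        if_pos rfl]
      ring
    rw [if_neg hWt, add_zero]
    by_cases hWA : W ≤ A <;> by_cases hWB : W ≤ B
    · have : W = ⊥ := eq_bot_iff.2 ((le_inf hWA hWB).trans hAB.disjoint.le_bot)
      subst this
      rw [cusp_rst_bot]
      simp
    · rw [if_pos hWA, if_neg hWB, add_zero]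
    · rw [if_neg hWA, if_pos hWB, zero_add]
    · rw [if_neg hWA, if_neg hWB, add_zero, hother W hW hWA hWB hWt]
  have h2 := liftSum_eq_sum θ f
  rw [Finset.sum_congr rfl key, Finset.sum_add_distrib, Finset.sum_add_distrib, ← Finset.sum_filter,
    ← Finset.sum_filter, ← hL, left_eq_add, Finset.sum_ite_eq' (invSub f) ⊤,
    if_pos (mem_invSub.2 le_top), cusp_rst_top] at h2
  exact h2

/-- `f` is killed by a power of `p`. -/
def Prim (p : F[X]) (f : Module.End F V) : Prop := ∃ M : ℕ, aeval f (p ^ M) = 0

/-- Either a nontrivial idempotent polynomial in `f` or a single primary divisor. -/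
theorem idem_or_prim (f : Module.End F V) (hV : 0 < finrank F V) :
    (∃ P : F[X], IsIdempotentElem (aeval f P) ∧ aeval f P ≠ 0 ∧ aeval f P ≠ 1) ∨
      ∃ p : F[X], Irreducible p ∧ p.Monic ∧ Prim p f := by
  classical
  haveI : Nontrivial V := Module.nontrivial_of_finrank_pos hV
  set m := minpoly F f with hm
  have hint : IsIntegral F f := LinearMap.isIntegral f
  obtain ⟨g, hgm, hg, hgf⟩ :=
    Polynomial.exists_monic_irreducible_factor m (minpoly.not_isUnit F f)
  obtain ⟨k, h, hh, hfk⟩ := WfDvdMonoid.max_power_factor (minpoly.ne_zero hint) hg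
  by_cases hu : IsUnit h
  · refine Or.inr ⟨g, hg, hgm, k, ?_⟩
    obtain ⟨u, rfl⟩ := hu
    have := minpoly.aeval F f
    rw [hfk, map_mul] at this
    calc aeval f (g ^ k) = aeval f (g ^ k) * (aeval f (u : F[X]) * aeval f ((u⁻¹ : F[X]ˣ) : F[X])) := by
          rw [← map_mul (aeval f), ← Units.val_mul, mul_inv_cancel, Units.val_one, map_one, mul_one]
      _ = 0 := by rw [← mul_assoc, this, zero_mul]
  left
  have hk : k ≠ 0 := by
    rintro rfl
    rw [hm, hfk, pow_zero, one_mul] at hgf
    exact hh hgf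
  obtain ⟨u, v, huv⟩ := ((hg.coprime_iff_not_dvd).mpr hh).pow_left (m := k)
  have hne : ∀ w, m ∣ w → g ^ k ∣ w ∧ h ∣ w := fun w hw =>
    ⟨dvd_trans ⟨h, hfk⟩ hw, dvd_trans ⟨g ^ k, by rw [hm, hfk, mul_comm]⟩ hw⟩
  have huv' : aeval f (u * g ^ k) + aeval f (v * h) = 1 := by rw [← map_add, huv, map_one]
  refine ⟨u * g ^ k, ?_, ?_, ?_⟩
  · have h0 : aeval f (u * g ^ k) * aeval f (v * h) = 0 := by
      rw [← map_mul, show u * g ^ k * (v * h) = (g ^ k * h) * (u * v) by ring, ← hfk, map_mul,
        minpoly.aeval, zero_mul]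
    calc aeval f (u * g ^ k) * aeval f (u * g ^ k)
        = aeval f (u * g ^ k) * (aeval f (u * g ^ k) + aeval f (v * h)) := by
          rw [mul_add, h0, add_zero]
      _ = aeval f (u * g ^ k) := by rw [huv', mul_one]
  · intro h0
    refine hu (isUnit_of_dvd_one ?_)
    rw [← huv]
    exact dvd_add (hne _ (minpoly.dvd F f h0)).2 (dvd_mul_left h v)
  · intro h0
    rw [h0, add_eq_left] at huv'
    refine hg.not_isUnit ((isUnit_pow_iff hk).mp (isUnit_of_dvd_one ?_))
    rw [← huv]
    exact dvd_add (dvd_mul_left _ u) (hne _ (minpoly.dvd F f huv')).1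

/-- A monic polynomial all of whose monic irreducible factors equal `p` is a power of `p`. -/
theorem eq_pow_of_factors {p g : F[X]} (hp : Irreducible p) (hpm : p.Monic) (hg : g.Monic)
    (h : ∀ i : F[X], Irreducible i → i.Monic → i ∣ g → i = p) : ∃ l : ℕ, g = p ^ l := by
  obtain ⟨l, r, hr, hgr⟩ := WfDvdMonoid.max_power_factor hg.ne_zero hp
  have hrm : r.Monic := (hpm.pow l).of_mul_monic_left (hgr ▸ hg)
  refine ⟨l, ?_⟩
  by_cases hu : IsUnit r
  · rw [hgr, hrm.isUnit_iff.1 hu, mul_one]
  obtain ⟨i, him, hi, hir⟩ := Polynomial.exists_monic_irreducible_factor r hu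
  exact absurd (h i hi him (hgr ▸ hir.trans (dvd_mul_left _ _)) ▸ hir) hr

theorem charpoly_eq_pow {p : F[X]} (hp : Irreducible p) (hpm : p.Monic) {f : Module.End F V}
    (hf : Prim p f) : ∃ l : ℕ, f.charpoly = p ^ l ∧ l * p.natDegree = finrank F V := by
  classical
  obtain ⟨M, hM⟩ := hf
  let b := Module.finBasis F V
  have hA : aeval (LinearMap.toMatrixAlgEquiv b f) (p ^ M) = 0 := by
    rw [aeval_algHom_apply, hM, map_zero]
  obtain ⟨l, hl⟩ := eq_pow_of_factors hp hpm (LinearMap.charpoly_monic f) (fun i hi him hid => by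
    rw [← LinearMap.charpoly_toMatrix f b] at hid
    exact eq_of_monic_of_associated him hpm
      (hi.associated_of_dvd hp (hi.prime.dvd_of_dvd_pow
        (CharDegrees.irreducible_dvd_of_dvd_charpoly hi hid hA))))
  refine ⟨l, hl, ?_⟩
  rw [← LinearMap.charpoly_natDegree f, hl, natDegree_pow]

theorem liftSum_prim {p : F[X]} (hp : Irreducible p) (hpm : p.Monic) {f : Module.End F V}
    (hf : Prim p f) : ∃ l : ℕ, l * p.natDegree = finrank F V ∧ liftSum θ f = l * rootSum θ p := by
  obtain ⟨l, hl, hl'⟩ := charpoly_eq_pow hp hpm hf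
  exact ⟨l, hl', by rw [liftSum, hl, rootSum_pow θ hp.ne_zero]⟩

/-- The evaluation map at a vector. -/
noncomputable def evalAt (f : Module.End F V) (v : V) : F[X] →ₗ[F] V :=
  (LinearMap.applyₗ v) ∘ₗ (aeval f).toLinearMap

theorem evalAt_apply (f : Module.End F V) (v : V) (g : F[X]) : evalAt f v g = aeval f g v := rfl

/-- The smallest invariant subspace containing `v`. -/
noncomputable def cycSub (f : Module.End F V) (v : V) : Submodule F V := LinearMap.range (evalAt f v)

theorem mem_cycSub_self (f : Module.End F V) (v : V) : v ∈ cycSub f v := ⟨1, by simp [evalAt_apply]⟩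

theorem inv_cycSub (f : Module.End F V) (v : V) : Inv f (cycSub f v) := by
  rintro _ ⟨g, rfl⟩
  exact ⟨X * g, by simp [evalAt_apply]⟩

open Classical in
/-- The value at a primary endomorphism with a cyclic vector. -/
theorem cusp_cyclic {p : F[X]} (hp : Irreducible p) (hpm : p.Monic) {f : Module.End F V}
    (hf : Prim p f) {v : V} (hv : cycSub f v = ⊤) (hV : 0 < finrank F V) :
    cusp θ f = rootSum θ p := by
  obtain ⟨M, hM⟩ := hf
  have hsurj : ∀ w, ∃ g, aeval f g v = w := fun w => by
    have : w ∈ cycSub f v := hv ▸ Submodule.mem_top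
    exact this
  set A := LinearMap.range (aeval f p) with hA
  have hiA : Inv f A := by
    rintro _ ⟨x, rfl⟩
    refine ⟨f x, ?_⟩
    have h := ((Commute.all (X : F[X]) p).map (aeval f)).eq
    rw [aeval_X] at h
    exact (LinearMap.congr_fun h x).symm
  have hAtop : A ≠ ⊤ := fun h => by
    have hs : Function.Surjective (aeval f p) := LinearMap.range_eq_top.1 h
    have hs' : Function.Surjective (aeval f (p ^ M)) := by
      rw [map_pow, Module.End.coe_pow]
      exact hs.iterate M
    rw [hM] at hs'
    haveI : Nontrivial V := Module.nontrivial_of_finrank_pos hV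
    obtain ⟨w, hw⟩ := exists_ne (0 : V)
    obtain ⟨x, hx⟩ := hs' w
    exact hw hx.symm
  have hlt : ∀ W ∈ invSub f, W ≠ ⊤ → W ≤ A := by
    intro W hW hWt w hw
    obtain ⟨g, rfl⟩ := hsurj w
    by_cases hpg : p ∣ g
    · obtain ⟨r, rfl⟩ := hpg
      exact ⟨aeval f r v, by rw [map_mul, Module.End.mul_apply]⟩
    exfalso
    obtain ⟨a, b, hab⟩ := ((hp.coprime_iff_not_dvd).2 hpg).pow_left (m := M)
    have hvW : v ∈ W := by
      have e : v = aeval f b (aeval f g v) := by
        conv_lhs => rw [show v = aeval f (a * p ^ M + b * g) v by rw [hab]; simp]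
        simp [hM]
      rw [e]
      exact inv_aeval (mem_invSub.1 hW) b _ hw
    refine hWt (eq_top_iff.2 fun x _ => ?_)
    obtain ⟨r, rfl⟩ := hsurj x
    exact inv_aeval (mem_invSub.1 hW) r _ hvW
  have hfil : (invSub f).filter (· ≠ ⊤) = (invSub f).filter (· ≤ A) :=
    Finset.filter_congr fun W hW => ⟨hlt W hW, fun h ht => hAtop (top_le_iff.1 (ht ▸ h))⟩
  rw [cusp_eq θ f, hfil, sum_le_eq_liftSum θ hiA, liftSum_split θ f A hiA, add_sub_cancel_left,
    liftSum]
  set fQ := A.mapQ A f hiA with hfQ
  have hkill : aeval fQ p = 0 := by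
    refine Submodule.linearMap_qext _ (LinearMap.ext fun x => ?_)
    have e : ∀ (g : F[X]) (y : V), aeval fQ g (A.mkQ y) = A.mkQ (aeval f g y) := by
      intro g
      induction g using Polynomial.induction_on' with
      | add a b ha hb => intro y; simp only [map_add, LinearMap.add_apply, ha, hb]
      | monomial k c =>
        intro y
        simp only [aeval_monomial, Module.End.mul_apply, Module.algebraMap_end_apply, map_smul]
        congr 1
        induction k with
        | zero => rfl
        | succ k ih =>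
          rw [pow_succ', pow_succ', Module.End.mul_apply, Module.End.mul_apply, ih]
          rfl
    show aeval fQ p (A.mkQ x) = _
    rw [e]
    exact (Submodule.Quotient.mk_eq_zero A).2 ⟨x, rfl⟩
  obtain ⟨j, hj, hj'⟩ := charpoly_eq_pow hp hpm (f := fQ) ⟨1, by rw [pow_one, hkill]⟩
  have hQ : finrank F (V ⧸ A) ≤ p.natDegree := by
    let Φ : Polynomial.degreeLT F p.natDegree →ₗ[F] V ⧸ A :=
      A.mkQ ∘ₗ evalAt f v ∘ₗ (Polynomial.degreeLT F p.natDegree).subtype
    have hΦ : Function.Surjective Φ := by
      intro z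
      obtain ⟨x, rfl⟩ := A.mkQ_surjective z
      obtain ⟨g, rfl⟩ := hsurj x
      refine ⟨⟨g %ₘ p, Polynomial.mem_degreeLT.2 ?_⟩, ?_⟩
      · rw [← degree_eq_natDegree hpm.ne_zero]
        exact degree_modByMonic_lt g hpm
      · refine (Submodule.Quotient.eq A).2 ⟨-(aeval f (g /ₘ p) v), ?_⟩
        simp only [LinearMap.comp_apply, Submodule.coe_subtype, evalAt_apply, map_neg]
        conv_rhs => rw [show aeval f g v = aeval f (g %ₘ p + p * (g /ₘ p)) v by
          rw [modByMonic_add_div g p]]
        simp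
    calc finrank F (V ⧸ A) ≤ finrank F (Polynomial.degreeLT F p.natDegree) :=
          LinearMap.finrank_le_finrank_of_surjective hΦ
      _ = p.natDegree := by
          rw [(Polynomial.degreeLTEquiv F _).finrank_eq, finrank_fin_fun]
  have hpos : 0 < finrank F (V ⧸ A) := by
    have h1 := A.finrank_quotient_add_finrank
    have h2 := Submodule.finrank_lt hAtop
    omega
  have hj1 : j = 1 := by
    rcases Nat.lt_or_ge j 2 with h | h
    · interval_cases j
      · omega
      · rfl
    · have := hp.natDegree_pos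
      nlinarith
  rw [hj, hj1, pow_one]

theorem aeval_add_dir {W : Submodule F V} {f h : Module.End F V} (hf : Inv f W)
    (hh : h ∈ unipDir W) : ∀ (g : F[X]), ∀ x ∈ W, aeval (f + h) g x = aeval f g x := by
  intro g
  induction g using Polynomial.induction_on' with
  | add a b ha hb => intro x hx; simp [ha x hx, hb x hx]
  | monomial k c =>
    intro x hx
    simp only [aeval_monomial, Module.End.mul_apply, Module.algebraMap_end_apply]
    congr 1
    induction k with
    | zero => rfl
    | succ k ih =>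
      have hmem : (f ^ k) x ∈ W := by
        have := inv_aeval hf (X ^ k) x hx
        simpa using this
      rw [pow_succ', pow_succ', Module.End.mul_apply, Module.End.mul_apply, ih, LinearMap.add_apply,
        hh.1 _ hmem, add_zero]

theorem prim_add_dir {p : F[X]} {W : Submodule F V} {f h : Module.End F V} (hf : Inv f W)
    (hh : h ∈ unipDir W) (hp : Prim p f) : Prim p (f + h) := by
  obtain ⟨M, hM⟩ := hp
  refine ⟨M + M, LinearMap.ext fun x => ?_⟩
  have hq : ∀ (g : F[X]) (y : V), W.mkQ (aeval (f + h) g y) = W.mkQ (aeval f g y) := by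
    intro g
    induction g using Polynomial.induction_on' with
    | add a b ha hb =>
      intro y
      simp only [map_add, LinearMap.add_apply]
      rw [ha, hb]
    | monomial k c =>
      intro y
      simp only [aeval_monomial, Module.End.mul_apply, Module.algebraMap_end_apply, map_smul]
      congr 1
      induction k with
      | zero => rfl
      | succ k ih =>
        have e1 : ∀ z, W.mkQ ((f + h) z) = W.mapQ W f hf (W.mkQ z) := fun z => by
          rw [LinearMap.add_apply, map_add,
            show W.mkQ (h z) = 0 from (Submodule.Quotient.mk_eq_zero W).2 (hh.2 z), add_zero]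
          rfl
        rw [pow_succ', pow_succ', Module.End.mul_apply, Module.End.mul_apply, e1, ih]
        rfl
  have h1 : aeval (f + h) (p ^ M) x ∈ W := by
    have := hq (p ^ M) x
    rw [hM] at this
    exact (Submodule.Quotient.mk_eq_zero W).1 (by simpa using this)
  rw [pow_add, map_mul, Module.End.mul_apply, aeval_add_dir hf hh _ _ h1, hM]
  rfl

theorem cycSub_add_dir {f h : Module.End F V} {v : V} (hh : h ∈ unipDir (cycSub f v)) :
    cycSub (f + h) v = cycSub f v := by
  have e := fun g => aeval_add_dir (inv_cycSub f v) hh g v (mem_cycSub_self f v)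
  ext w
  constructor <;> rintro ⟨g, rfl⟩ <;> exact ⟨g, by simp [evalAt_apply, e g]⟩


/-- Two cyclic endomorphisms with the same annihilator are intertwined by a map of the cyclic
vectors. -/
theorem exists_intertwiner {Q : F[X]} (hQ : Q.Monic) (hd : finrank F V = Q.natDegree)
    {x y : Module.End F V} (hx : aeval x Q = 0) (hy : aeval y Q = 0) {z z' : V}
    (hz : ∀ f : F[X], aeval x f z = 0 → Q ∣ f) (hz' : ∀ f : F[X], aeval y f z' = 0 → Q ∣ f) :
    ∃ e : V ≃ₗ[F] V, e z = z' ∧ ∀ v, e (x v) = y (e v) := by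
  choose g hg using CharDegrees.Thompson.surjective_of_cyclic hQ hd hz
  have key : ∀ r : F[X], aeval y (g (aeval x r z)) z' = aeval y r z' := by
    intro r
    obtain ⟨c, hc⟩ := hz (g (aeval x r z) - r) (by rw [map_sub, LinearMap.sub_apply, hg, sub_self])
    rw [sub_eq_iff_eq_add.1 hc, map_add, LinearMap.add_apply, map_mul, hy, zero_mul,
      LinearMap.zero_apply, zero_add]
  let T : V →ₗ[F] V :=
    { toFun := fun v => aeval y (g v) z'
      map_add' := fun v w => by
        conv_lhs => rw [show v + w = aeval x (g v + g w) z by rw [map_add, LinearMap.add_apply, hg, hg]]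
        rw [key, map_add, LinearMap.add_apply]
      map_smul' := fun c v => by
        conv_lhs => rw [show c • v = aeval x (c • g v) z by rw [map_smul, LinearMap.smul_apply, hg]]
        rw [key, map_smul, LinearMap.smul_apply]
        rfl }
  have hinj : Function.Injective T := by
    rw [injective_iff_map_eq_zero]
    intro v hv
    obtain ⟨c, hc⟩ := hz' _ hv
    rw [← hg v, hc, map_mul, hx, zero_mul, LinearMap.zero_apply]
  refine ⟨LinearEquiv.ofBijective T ⟨hinj, LinearMap.injective_iff_surjective.1 hinj⟩, ?_,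
    fun v => ?_⟩
  · show aeval y (g z) z' = z'
    conv_lhs => rw [show z = aeval x (1 : F[X]) z by simp]
    rw [key]
    simp
  · show aeval y (g (x v)) z' = y (aeval y (g v) z')
    conv_lhs => rw [show x v = aeval x (X * g v) z by rw [map_mul, Module.End.mul_apply, hg, aeval_X]]
    rw [key, map_mul, Module.End.mul_apply, aeval_X]

/-- All endomorphisms. -/
noncomputable def allEnd (F V : Type*) [Field F] [Finite F] [AddCommGroup V] [Module F V]
    [FiniteDimensional F V] : Finset (Module.End F V) :=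
  haveI := finite_space F V
  haveI : Finite (Module.End F V) := Finite.of_injective _ DFunLike.coe_injective
  (Set.toFinite (Set.univ : Set (Module.End F V))).toFinset

theorem mem_allEnd (f : Module.End F V) : f ∈ allEnd F V := by simp [allEnd]

/-- A sum over a set invariant under translation by a unipotent radical. -/
theorem sum_eq_zero_of_translate {U : Submodule F V} (hU0 : U ≠ ⊥) (hU1 : U ≠ ⊤)
    (A : Finset (Module.End F V)) (hinv : ∀ f ∈ A, Inv f U)
    (hA : ∀ f ∈ A, ∀ h ∈ dirSet U, f + h ∈ A) (g : Module.End F V → ℂ)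
    (hg : ∀ f ∈ A, ∀ h ∈ dirSet U, g (f + h) = g f) :
    ∑ f ∈ A, g f * cusp θ f = 0 := by
  have h1 : ∑ h ∈ dirSet U, ∑ f ∈ A, g (f + h) * cusp θ (f + h)
      = ((dirSet U).card : ℂ) * ∑ f ∈ A, g f * cusp θ f := by
    rw [← nsmul_eq_mul, ← Finset.sum_const]
    refine Finset.sum_congr rfl fun h hh => ?_
    refine Finset.sum_bij' (fun f _ => f + h) (fun f _ => f + -h) (fun f hf => hA f hf h hh)
      (fun f hf => hA f hf (-h) (mem_dirSet.2 (neg_mem (mem_dirSet.1 hh))))
      (fun f _ => add_neg_cancel_right f h) (fun f _ => neg_add_cancel_right f h) (fun f _ => rfl)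
  rw [Finset.sum_comm, Finset.sum_eq_zero (fun f hf => ?_)] at h1
  · exact (mul_eq_zero.1 h1.symm).resolve_left (by exact_mod_cast (card_dirSet_pos U).ne')
  rw [Finset.sum_congr rfl fun h hh => by rw [hg f hf h hh], ← Finset.mul_sum,
    sum_cusp_dir θ _ rfl U f (hinv f hf) hU0 hU1, mul_zero]

open Classical in
/-- The sum of the cuspidal function over the `p`-primary endomorphisms. -/
theorem sum_prim {p : F[X]} (hp : Irreducible p) (hpm : p.Monic) {l : ℕ}
    (hl : l * p.natDegree = finrank F V) (hV : 0 < finrank F V) :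
    ((Nat.card V : ℂ) - 1) * ∑ f ∈ (allEnd F V).filter (Prim p), cusp θ f
      = rootSum θ p * (Nat.card (V ≃ₗ[F] V) : ℂ) := by
  haveI := finite_space F V
  letI : Fintype V := Fintype.ofFinite V
  haveI := finite_submodule F V
  letI : Fintype (Submodule F V) := Fintype.ofFinite _
  set P := (allEnd F V).filter (Prim p) with hP
  have hsum : ((Nat.card V : ℂ) - 1) * ∑ f ∈ P, cusp θ f
      = ∑ v ∈ Finset.univ.filter (fun v : V => v ≠ 0), ∑ f ∈ P, cusp θ f := by
    rw [Finset.sum_const, nsmul_eq_mul]
    congr 1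
    rw [Finset.filter_ne', Finset.card_erase_of_mem (Finset.mem_univ _), Finset.card_univ,
      Nat.card_eq_fintype_card, Nat.cast_sub Fintype.card_pos, Nat.cast_one]
  rw [hsum]
  have hfib : ∀ v : V, v ≠ 0 → ∑ f ∈ P, cusp θ f
      = ∑ f ∈ P.filter (fun f => cycSub f v = ⊤), rootSum θ p := by
    intro v hv
    rw [← Finset.sum_fiberwise P (fun f => cycSub f v), Finset.sum_eq_single (⊤ : Submodule F V)]
    · refine Finset.sum_congr rfl fun f hf => ?_
      obtain ⟨hfP, hfv⟩ := Finset.mem_filter.1 hf
      exact cusp_cyclic θ hp hpm (Finset.mem_filter.1 hfP).2 hfv hV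
    · intro W _ hW
      by_cases hex : ∃ f ∈ P, cycSub f v = W
      swap
      · push Not at hex
        rw [Finset.filter_false_of_mem hex, Finset.sum_empty]
      obtain ⟨f₁, -, hf₁⟩ := hex
      have hW0 : W ≠ ⊥ := fun h => hv (by
        have := mem_cycSub_self f₁ v
        rw [hf₁, h, Submodule.mem_bot] at this
        exact this)
      have key := sum_eq_zero_of_translate θ hW0 hW (P.filter (fun f => cycSub f v = W))
        (fun f hf => (Finset.mem_filter.1 hf).2 ▸ inv_cycSub f v) (fun f hf h hh => by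
          obtain ⟨hfP, hfv⟩ := Finset.mem_filter.1 hf
          refine Finset.mem_filter.2 ⟨Finset.mem_filter.2 ⟨mem_allEnd _, ?_⟩, ?_⟩
          · exact prim_add_dir (hfv ▸ inv_cycSub f v) (mem_dirSet.1 hh) (Finset.mem_filter.1 hfP).2
          · subst hfv
            exact cycSub_add_dir (mem_dirSet.1 hh))
        (fun _ => 1) (fun _ _ _ _ => rfl)
      simpa using key
    · exact fun h => absurd (Finset.mem_univ _) h
  rw [Finset.sum_congr rfl fun v hv => hfib v (Finset.mem_filter.1 hv).2]
  simp only [Finset.sum_const, nsmul_eq_mul, ← Finset.sum_mul]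
  rw [mul_comm]
  congr 1
  rw [← Nat.cast_sum, ← Finset.card_sigma]
  congr 1
  -- the count of cyclic pairs
  set Q := p ^ l with hQ
  have hQm : Q.Monic := hpm.pow l
  have hQd : Q.natDegree = finrank F V := by rw [hQ, natDegree_pow, hl]
  have hzspec : ∀ (f : Module.End F V) (v : V), Prim p f → cycSub f v = ⊤ →
      aeval f Q = 0 ∧ ∀ g : F[X], aeval f g v = 0 → Q ∣ g := by
    intro f v hf hfv
    have hint : IsIntegral F f := LinearMap.isIntegral f
    obtain ⟨j, hj, hj'⟩ := charpoly_eq_pow hp hpm hf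
    have hjl : j = l := Nat.eq_of_mul_eq_mul_right hp.natDegree_pos (hj'.trans hl.symm)
    have h0 : aeval f Q = 0 := by rw [hQ, ← hjl, ← hj, LinearMap.aeval_self_charpoly]
    refine ⟨h0, fun g hg => ?_⟩
    have hg0 : aeval f g = 0 := LinearMap.ext fun w => by
      obtain ⟨r, rfl⟩ : w ∈ cycSub f v := hfv ▸ Submodule.mem_top
      rw [evalAt_apply, ← Module.End.mul_apply, ← map_mul, mul_comm, map_mul, Module.End.mul_apply,
        hg, map_zero]
      rfl
    have hd : Q.natDegree ≤ (minpoly F f).natDegree := by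
      rw [hQd]
      let Φ : Polynomial.degreeLT F (minpoly F f).natDegree →ₗ[F] V :=
        evalAt f v ∘ₗ (Polynomial.degreeLT F (minpoly F f).natDegree).subtype
      have hΦ : Function.Surjective Φ := fun w => by
        obtain ⟨r, rfl⟩ : w ∈ cycSub f v := hfv ▸ Submodule.mem_top
        refine ⟨⟨r %ₘ minpoly F f, Polynomial.mem_degreeLT.2 ?_⟩, ?_⟩
        · rw [← degree_eq_natDegree (minpoly.ne_zero hint)]
          exact degree_modByMonic_lt r (minpoly.monic hint)
        · show aeval f (r %ₘ minpoly F f) v = aeval f r v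
          conv_rhs => rw [← modByMonic_add_div r (minpoly F f)]
          simp [minpoly.aeval]
      calc finrank F V ≤ finrank F (Polynomial.degreeLT F (minpoly F f).natDegree) :=
            LinearMap.finrank_le_finrank_of_surjective hΦ
        _ = _ := by rw [(Polynomial.degreeLTEquiv F _).finrank_eq, finrank_fin_fun]
    rw [Polynomial.eq_of_monic_of_dvd_of_natDegree_le (minpoly.monic hint) hQm
      (minpoly.dvd F f h0) hd]
    exact minpoly.dvd F f hg0
  haveI : Module.Finite F (AdjoinRoot Q) := hQm.finite_adjoinRoot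
  have hfr : finrank F (AdjoinRoot Q) = finrank F V := by
    rw [(AdjoinRoot.powerBasis' hQm).finrank, AdjoinRoot.powerBasis'_dim, hQd]
  let T : AdjoinRoot Q ≃ₗ[F] V := LinearEquiv.ofFinrankEq _ _ hfr
  set f₀ : Module.End F V := T.conjAlgEquiv F (LinearMap.mulLeft F (AdjoinRoot.root Q)) with hf₀
  set v₀ : V := T 1 with hv₀
  have hev : ∀ g : F[X], aeval f₀ g v₀ = T (AdjoinRoot.mk Q g) := by
    intro g
    have e : aeval f₀ g = T.conjAlgEquiv F (LinearMap.mulLeft F (AdjoinRoot.mk Q g)) := by
      rw [hf₀, show aeval (T.conjAlgEquiv F (LinearMap.mulLeft F (AdjoinRoot.root Q))) g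
          = T.conjAlgEquiv F (aeval (LinearMap.mulLeft F (AdjoinRoot.root Q)) g) from
          aeval_algHom_apply (T.conjAlgEquiv F).toAlgHom _ g]
      congr 1
      have := aeval_algHom_apply (Algebra.lmul F (AdjoinRoot Q)) (AdjoinRoot.root Q) g
      rw [AdjoinRoot.aeval_eq] at this
      exact this
    rw [e, hv₀]
    simp
  have hf₀P : Prim p f₀ := ⟨l, LinearMap.ext fun w => by
    obtain ⟨x, rfl⟩ := T.surjective w
    obtain ⟨g, rfl⟩ := AdjoinRoot.mk_surjective (g := Q) x
    rw [← hev, ← Module.End.mul_apply, ← map_mul, hev, AdjoinRoot.mk_eq_zero.2 ⟨g, rfl⟩, map_zero]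
    rfl⟩
  have hf₀v : cycSub f₀ v₀ = ⊤ := eq_top_iff.2 fun w _ => by
    obtain ⟨x, rfl⟩ := T.surjective w
    obtain ⟨g, rfl⟩ := AdjoinRoot.mk_surjective (g := Q) x
    exact ⟨g, hev g⟩
  have hcoe : Function.Injective (fun e : V ≃ₗ[F] V => (e : V → V)) := DFunLike.coe_injective
  haveI : Finite (V ≃ₗ[F] V) := Finite.of_injective _ hcoe
  letI : Fintype (V ≃ₗ[F] V) := Fintype.ofFinite _
  rw [Nat.card_eq_fintype_card, ← Finset.card_univ]
  symm
  have haev : ∀ (e : V ≃ₗ[F] V) (f : Module.End F V) (g : F[X]) (w : V),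
      aeval (e.conjAlgEquiv F f) g (e w) = e (aeval f g w) := by
    intro e f g w
    rw [show aeval (e.conjAlgEquiv F f) g = e.conjAlgEquiv F (aeval f g) from
      aeval_algHom_apply (e.conjAlgEquiv F).toAlgHom _ g]
    simp
  refine Finset.card_bij (fun e _ => (⟨e v₀, e.conjAlgEquiv F f₀⟩ : Σ _ : V, Module.End F V))
    (fun e _ => ?_) (fun e _ e' _ h => ?_) (fun x hx => ?_)
  · refine Finset.mem_sigma.2 ⟨Finset.mem_filter.2 ⟨Finset.mem_univ _, fun h => ?_⟩,
      Finset.mem_filter.2 ⟨Finset.mem_filter.2 ⟨mem_allEnd _, ?_⟩, ?_⟩⟩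
    · have hv0 : v₀ = 0 := e.map_eq_zero_iff.1 h
      haveI : Nontrivial V := Module.nontrivial_of_finrank_pos hV
      obtain ⟨w, hw⟩ := exists_ne (0 : V)
      obtain ⟨g, rfl⟩ : w ∈ cycSub f₀ v₀ := hf₀v ▸ Submodule.mem_top
      exact hw (by rw [evalAt_apply, hv0, map_zero])
    · obtain ⟨M, hM⟩ := hf₀P
      refine ⟨M, LinearMap.ext fun w => ?_⟩
      obtain ⟨u, rfl⟩ := e.surjective w
      rw [haev, hM]
      simp
    · refine eq_top_iff.2 fun w _ => ?_
      obtain ⟨u, rfl⟩ := e.surjective w
      obtain ⟨g, rfl⟩ : u ∈ cycSub f₀ v₀ := hf₀v ▸ Submodule.mem_top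
      exact ⟨g, haev e f₀ g v₀⟩
  · simp only [Sigma.mk.injEq, heq_eq_eq] at h
    refine LinearEquiv.ext fun w => ?_
    obtain ⟨g, rfl⟩ : w ∈ cycSub f₀ v₀ := hf₀v ▸ Submodule.mem_top
    rw [evalAt_apply, ← haev, ← haev, h.1, h.2]
  · obtain ⟨v, f⟩ := x
    obtain ⟨-, hx2⟩ := Finset.mem_sigma.1 hx
    obtain ⟨hfP, hfv⟩ := Finset.mem_filter.1 hx2
    have hfP' := (Finset.mem_filter.1 hfP).2
    obtain ⟨hz0, hz1⟩ := hzspec f₀ v₀ hf₀P hf₀v
    obtain ⟨hy0, hy1⟩ := hzspec f v hfP' hfv
    obtain ⟨e, he1, he2⟩ := exists_intertwiner hQm hQd.symm hz0 hy0 hz1 hy1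
    refine ⟨e, Finset.mem_univ _, ?_⟩
    simp only [Sigma.mk.injEq, heq_eq_eq]
    refine ⟨he1, LinearMap.ext fun w => ?_⟩
    obtain ⟨u, rfl⟩ := e.surjective w
    simp [he2]

end CfsgLib.GLCuspidal
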